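import Mathlib
import Cfsg.Agent.T3.FP
import Cfsg.Agent.Spor.FiTwo
import Cfsg.Agent.Spor.FC.J

/-! Automorphisms of `U₆(2)` and the standard plane of transvections. -/

set_option autoImplicit false
set_option maxRecDepth 100000
set_option exponentiation.threshold 100000

namespace Cfsg.Agent.SF6

open Cfsg.Agent.Spor Cfsg.Agent.Spor.TT Cfsg.Agent.Spor.FC Cfsg.Agent.T3.FPl Subgroup

/-- `α` permutes the points of the plane. -/
def Pm (α : MulAut PU6) : Prop := ∀ i < 21, ∃ j < 21, α (pt (pl i)) = pt (pl j)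

/-- `α` fixes the points of the plane. -/
def Fx (α : MulAut PU6) : Prop := ∀ i < 21, α (pt (pl i)) = pt (pl i)

variable {α β : MulAut PU6} {u : PU6}

namespace UPl

theorem step' {F : List ℕ} {y : ℕ} {tab : List ℕ} (h : chk F y tab = true) {β : MulAut PU6}
    (h1 : ∀ i < 21, β (pt (pl i)) = pt (pl i)) (h2 : ∀ u ∈ F, β (pt u) = pt u) :
    ∃ g ∈ EP, (∀ i < 21, ((MulAut.conj g)⁻¹ * β) (pt (pl i)) = pt (pl i)) ∧
      ∀ u ∈ y :: F, ((MulAut.conj g)⁻¹ * β) (pt u) = pt u := by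
  simp only [chk, band_iff, allL_iff, fixesL, nbeq_iff] at h
  obtain ⟨⟨iy, iF⟩, hf, hw⟩ := h
  obtain ⟨w, iw, e⟩ := exists_code (map_mem β (pt_mem iy))
  have k := allRange_zero hw w (iso_iff.1 iw).1
  have k1 : allL F (fun u => Nat.beq (Nat.min (fm w u) 1) (Nat.min (fm y u) 1)) = true :=
    (allL_iff _ _).2 fun u hu => (nbeq_iff _ _).2 (by
      have : fm w u = 0 ↔ fm y u = 0 := by
        rw [← ufr0.commute_code (iF u hu) iw, ← ufr0.commute_code (iF u hu) iy]
        show Commute (pt u) (pt w) ↔ Commute (pt u) (pt y)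
        rw [e]; nth_rw 1 [← h2 u hu]
        exact ⟨fun c => c.of_map β.injective, fun c => c.map β⟩
      show min _ 1 = min _ 1
      omega)
  rw [iw, k1, bor_iff, force_eq] at k
  have k2 := k.resolve_left (by decide)
  simp only [Bool.not_eq_true', ← Bool.not_eq_true, allL_iff, not_forall, not_not, nbeq_iff] at k2
  obtain ⟨x, hx, k3⟩ := k2
  have key : ∀ a b : PU6, cj (ev x) a = b → β a = b → ((MulAut.conj (ev x))⁻¹ * β) a = a :=
    fun a b e1 e2 => by
      rw [MulAut.mul_apply, e2, ← e1, ← map_inv, MulAut.conj_apply, cj]; group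
  refine ⟨ev x, ⟨x, rfl⟩, fun i hi => key _ _ (cj_eq_self_iff.2 (comm_ev hi (by decide) x).symm) (h1 i hi),
    List.forall_mem_cons.2 ⟨key _ _ ?_ e.symm, fun u hu => key _ _ ?_ (h2 u hu)⟩⟩
  · exact (cj_word (iso_bl x) iy).trans (by rw [k3]; exact ufr0.nrm iw)
  · exact (cj_word (iso_bl x) (iF u hu)).trans (by rw [hf x hx u hu])

theorem pt_EP {i : ℕ} (hi : i < 21) : pt (pl i) ∈ EP := ⟨_, (pt_pl hi).symm⟩

theorem pt_inj {i j : ℕ} (hi : i < 21) (hj : j < 21) (e : pt (pl i) = pt (pl j)) : i = j :=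
  ka_inj i hi j hj (ev_inj (ka_lt i hi) (ka_lt j hj) (by rw [← pt_pl hi, ← pt_pl hj, e]))

theorem pair {a b c d : ℕ} (ha : a < 21) (hb : b < 21) (hc : c < 21) (hd : d < 21) (n : a ≠ b)
    (e : pt (pl c) * pt (pl d) = pt (pl a) * pt (pl b)) : c = a ∨ c = b :=
  pair_inj ha hb hc hd n (ev_inj (Nat.xor_lt_two_pow (ka_lt a ha) (ka_lt b hb))
    (Nat.xor_lt_two_pow (ka_lt c hc) (ka_lt d hd))
    (by rw [ev_xor, ev_xor, ← pt_pl ha, ← pt_pl hb, ← pt_pl hc, ← pt_pl hd, e]))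

/-- An automorphism moving a point of the plane fixes at most seven points. -/
theorem fix7 {β : MulAut PU6} {σ : ℕ → ℕ} (h1 : ∀ i < 21, σ i < 21)
    (hβ : ∀ i < 21, β (pt (pl i)) = pt (pl (σ i))) (nf : ¬ Fx β) :
    ((Finset.range 21).filter fun i => σ i = i).card ≤ 7 := by
  obtain ⟨p, hp, n⟩ : ∃ p < 21, σ p ≠ p := by
    by_contra! k
    exact nf fun i hi => (hβ i hi).trans (by rw [k i hi])
  have lt : ∀ a < 21, ∀ b < 21, ka a ^^^ ka b < 2 ^ 9 := fun a ha b hb =>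
    Nat.xor_lt_two_pow (ka_lt a ha) (ka_lt b hb)
  have lt3 : ∀ a < 21, ∀ b < 21, ∀ x < 21, ka a ^^^ ka b ^^^ ka x < 2 ^ 9 := fun a ha b hb x hx =>
    Nat.xor_lt_two_pow (lt a ha b hb) (ka_lt x hx)
  have hβ' : ∀ i < 21, β (ev (ka i)) = ev (ka (σ i)) := fun i hi => by
    rw [← pt_pl hi, ← pt_pl (h1 i hi), hβ i hi]
  have h3 : ∀ a < 21, ∀ b < 21, ∀ x < 21, tt a b x = true → tt (σ a) (σ b) (σ x) = true :=
    fun a ha b hb x hx t => by
      obtain ⟨c, hc, d, hd, e⟩ := (m2_iff (lt3 a ha b hb x hx)).1 t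
      refine (m2_iff (lt3 _ (h1 a ha) _ (h1 b hb) _ (h1 x hx))).2 ⟨_, h1 c hc, _, h1 d hd, ev_inj
        (lt3 _ (h1 a ha) _ (h1 b hb) _ (h1 x hx)) (lt _ (h1 c hc) _ (h1 d hd)) ?_⟩
      rw [ev_xor, ev_xor, ev_xor, ← hβ' a ha, ← hβ' b hb, ← hβ' x hx, ← hβ' c hc, ← hβ' d hd, ← map_mul,
        ← map_mul, ← map_mul, ← ev_xor, ← ev_xor, ← ev_xor, e]
  have c1 : ∀ p < 21, ∀ q < 21, lk p q < 5 ∧ (q ≠ p →
      ((Finset.range 21).filter fun x => x ≠ p ∧ x ≠ q ∧ lk p x = lk p q).card ≤ 3) := by decide +kernel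
  have c2 : (((Finset.range 21).filter fun i => σ i = i).filter
      fun x => ¬ lk p x = lk p (σ p)).card ≤ ((Finset.range 5).erase (lk p (σ p))).card := by
    refine Finset.card_le_card_of_injOn (lk p) (fun x hx => ?_) fun a ha b hb e => ?_
    · simp only [Finset.coe_filter, Finset.mem_filter, Finset.mem_range, Set.mem_ofPred_eq] at hx
      simpa using ⟨(c1 p hp x hx.1.1).1, hx.2⟩
    · simp only [Finset.coe_filter, Finset.mem_filter, Finset.mem_range, Set.mem_ofPred_eq] at ha hb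
      by_contra nab
      obtain ⟨k1, k2⟩ := line hp ha.1.1 hb.1.1 (h1 p hp) nab (fun x => n (x ▸ ha.1.2))
        (fun x => n (x ▸ hb.1.2)) e n (Ne.symm ha.2)
      have := h3 a ha.1.1 b hb.1.1 p hp k1
      rw [ha.1.2, hb.1.2, k2] at this
      exact absurd this (by decide)
  have c3 : (((Finset.range 21).filter fun i => σ i = i).filter fun x => lk p x = lk p (σ p)).card ≤ 3 := by
    refine (Finset.card_le_card fun x hx => ?_).trans ((c1 p hp _ (h1 p hp)).2 n)
    simp only [Finset.mem_filter, Finset.mem_range] at hx ⊢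
    refine ⟨hx.1.1, fun e => n (e ▸ hx.1.2), fun e => n ?_, hx.2⟩
    rw [← e]
    exact pt_inj hx.1.1 hp (β.injective (by rw [hβ x hx.1.1, hβ p hp, hx.1.2, e]))
  have c4 := Finset.card_filter_add_card_filter_not (s := (Finset.range 21).filter fun i => σ i = i)
    fun x => lk p x = lk p (σ p)
  rw [Finset.card_erase_of_mem (Finset.mem_range.2 (c1 p hp _ (h1 p hp)).1), Finset.card_range] at c2
  omega

end UPl

open UPl

theorem Fx.exists (h : Fx α) : ∃ u ∈ EP, α = MulAut.conj u := by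
  obtain ⟨g1, m1, a1, b1⟩ := step' (F := [5, 80, 1280]) (y := 6) (tab := [0, 1, 24, 16, 25, 9, 17, 8, 96,
    64, 97, 33, 65, 32, 120, 81, 121, 40, 80, 41, 113, 73, 112, 57, 72, 56, 105, 88, 104, 48, 89, 49])
    (by decide +kernel) h (by
      simp only [List.forall_mem_cons]
      exact ⟨h 0 (by decide), h 1 (by decide), h 2 (by decide), by simp⟩)
  obtain ⟨g2, m2, a2, b2⟩ := step' (F := [6, 5, 80, 1280]) (y := 96) (tab := [0, 2, 384, 256, 386, 130, 258, 128])
    (by decide +kernel) a1 b1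
  obtain ⟨g3, m3, a3, b3⟩ := step' (F := [96, 6, 5, 80, 1280]) (y := 1536) (tab := [0, 4])
    (by decide +kernel) a2 b2
  have := eq_one a3 b3
  rw [inv_mul_eq_one, eq_inv_mul_iff_mul_eq, eq_inv_mul_iff_mul_eq] at this
  exact ⟨g1 * (g2 * g3), mul_mem m1 (mul_mem m2 m3), by rw [map_mul, map_mul, this]⟩

theorem Pm.map_EP (h : Pm α) (hu : u ∈ EP) : α u ∈ EP := by
  obtain ⟨x, rfl⟩ := hu
  refine evalW_mem (K := EP.comap α.toMonoidHom) fun y hy => ?_
  obtain ⟨i, hi, rfl⟩ := mem_bl hy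
  obtain ⟨j, hj, e⟩ := h i (by omega)
  exact mem_comap.2 ((show α.toMonoidHom _ = _ from e) ▸ pt_EP hj)

theorem pm_of_pow (h : ∀ i < 21, ∀ j < 21, ∃ k : ℕ, (pt (pl j) * α (pt (pl i))) ^ 2 ^ k = 1) : Pm α := by
  refine fun i hi => max_pl (map_mem α (pt_mem (iso_pl i hi))) fun j hj => ?_
  have ha := pt_mem (iso_pl j hj)
  have hb := map_mem α (pt_mem (iso_pl i hi))
  rw [fis_tvP.set.commute_iff_sq ha hb]
  refine (fis_tvP.set.2 _ ha _ hb).elim id fun h3 => ?_
  obtain ⟨k, h2⟩ := h i hi j hj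
  have := pow_gcd_eq_one.2 ⟨h2, h3⟩
  rw [Nat.Coprime.gcd_eq_one (Nat.Coprime.pow_left k (by decide)), pow_one] at this
  rw [this, one_pow]

theorem q1 (hα : Pm α) (hβ : Pm β) (a2 : α * α = 1) (b2 : β * β = 1) (ab : α * β = β * α)
    (hq : ∀ u ∈ EP, β (α u * u) = α u * u) : Fx α ∨ Fx β ∨ Fx (α * β) := by
  choose! σ h1 hσ using hα
  choose! τ h2 hτ using hβ
  by_contra! k
  have inv : ∀ i < 21, τ (τ i) = i := fun i hi => pt_inj (h2 _ (h2 i hi)) hi (by
    rw [← hτ _ (h2 i hi), ← hτ i hi, ← MulAut.mul_apply, b2, MulAut.one_apply])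
  have inv' : ∀ i < 21, σ (σ i) = i := fun i hi => pt_inj (h1 _ (h1 i hi)) hi (by
    rw [← hσ _ (h1 i hi), ← hσ i hi, ← MulAut.mul_apply, a2, MulAut.one_apply])
  have com : ∀ i < 21, σ (τ i) = τ (σ i) := fun i hi => pt_inj (h1 _ (h2 i hi)) (h2 _ (h1 i hi)) (by
    rw [← hσ _ (h2 i hi), ← hτ i hi, ← hτ _ (h1 i hi), ← hσ i hi, ← MulAut.mul_apply, ab, MulAut.mul_apply])
  have c1 := fix7 h1 hσ k.1
  have c2 := fix7 h2 hτ k.2.1
  have c3 := fix7 (σ := fun i => σ (τ i)) (fun i hi => h1 _ (h2 i hi))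
    (fun i hi => by rw [MulAut.mul_apply, hτ i hi, hσ _ (h2 i hi)]) k.2.2
  set A := (Finset.range 21).filter fun i => σ i = i with hA
  set B := (Finset.range 21).filter fun i => τ i = i with hB
  set C := (Finset.range 21).filter fun i => σ (τ i) = i with hC
  have c4 : (Finset.range 21).card ≤ (A ∪ B ∪ C).card := Finset.card_le_card fun p hp => by
    simp only [hA, hB, hC, Finset.mem_union, Finset.mem_filter, hp, true_and]
    rw [Finset.mem_range] at hp
    by_contra! n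
    have e := hq _ (pt_EP hp)
    rw [hσ p hp, map_mul, hτ _ (h1 p hp), hτ p hp, (comm_pl (h1 p hp) hp).eq,
      (comm_pl (h2 _ (h1 p hp)) (h2 p hp)).eq] at e
    exact n.2 (by rw [(pair hp (h1 p hp) (h2 p hp) (h2 _ (h1 p hp)) n.1.1.symm e).resolve_left n.1.2, inv' p hp])
  have c5 := Finset.card_union_le (A ∪ B) C
  have c6 := Finset.card_union_add_card_inter A B
  rw [Finset.card_range] at c4
  have c7 : A ∩ B = ∅ := Finset.card_eq_zero.1 (by omega)
  have c8 : ∑ _i ∈ A, (1 : ZMod 2) = 0 := Finset.sum_involution (fun i _ => τ i) (fun _ _ => rfl)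
    (fun i hi _ e => Finset.notMem_empty i (c7 ▸ Finset.mem_inter.2
      ⟨hi, Finset.mem_filter.2 ⟨(Finset.mem_filter.1 hi).1, e⟩⟩))
    (fun i hi => by
      simp only [hA, Finset.mem_filter, Finset.mem_range] at hi ⊢
      exact ⟨h2 i hi.1, by rw [com i hi.1, hi.2]⟩)
    (fun i hi => inv i (Finset.mem_range.1 (Finset.mem_filter.1 hi).1))
  rw [Finset.sum_const, show A.card = 7 by omega] at c8
  exact absurd c8 (by decide)

theorem q2 (hα : Pm α) (h : ∀ u ∈ EP, ∀ v ∈ EP, α u = u ∨ α v = v ∨ α (u * v) = u * v) : Fx α := by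
  choose! σ h1 hσ using hα
  by_contra k
  have c1 := fix7 h1 hσ k
  have c2 := Finset.card_filter_add_card_filter_not (s := Finset.range 21) fun i => σ i = i
  rw [Finset.card_range] at c2
  set M := (Finset.range 21).filter fun i => ¬ σ i = i with hM
  have key : ∀ p ∈ M, ∀ q ∈ M, q ≠ p → q ≠ σ p → α (pt (pl p) * pt (pl q)) ≠ pt (pl p) * pt (pl q) :=
    fun p hp q hq n1 n2 e => by
      simp only [hM, Finset.mem_filter, Finset.mem_range] at hp hq
      rw [map_mul, hσ p hp.1, hσ q hq.1] at e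
      exact (pair hp.1 hq.1 (h1 p hp.1) (h1 q hq.1) n1.symm e).elim hp.2 n2.symm
  obtain ⟨p, hp⟩ := Finset.card_pos.1 (show 0 < M.card by omega)
  obtain ⟨q, hq, nq⟩ := Finset.exists_mem_notMem_of_card_lt_card (s := {p, σ p}) (t := M)
    (Finset.card_le_two.trans_lt (by omega))
  obtain ⟨r, hr, nr⟩ := Finset.exists_mem_notMem_of_card_lt_card (s := {p, σ p, q, σ q}) (t := M)
    (Finset.card_le_four.trans_lt (by omega))
  simp only [Finset.mem_insert, Finset.mem_singleton, not_or] at nq nr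
  have lt : ∀ p ∈ M, p < 21 := fun p hp => Finset.mem_range.1 (Finset.mem_filter.1 hp).1
  rcases h _ (mul_mem (pt_EP (lt p hp)) (pt_EP (lt q hq))) _ (mul_mem (pt_EP (lt p hp)) (pt_EP (lt r hr)))
    with e | e | e
  · exact key p hp q hq nq.1 nq.2 e
  · exact key p hp r hr nr.1 nr.2.1 e
  · rw [(comm_pl (lt p hp) (lt q hq)).eq, mul_assoc, ← mul_assoc (pt (pl p)),
      sq0 _ (pt_mem (iso_pl p (lt p hp))), one_mul] at e
    exact key q hq r hr nr.2.2.1 nr.2.2.2 e

theorem conj_EP (h : u * u = 1) : ∃ g, cj g u ∈ EP := by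
  obtain ⟨l, -, l1, rfl⟩ := bs_tvP.invol u h
  have e3 : IsPGroup 2 (closure {x | x ∈ l}) := fun x => ⟨1, Subtype.ext ((pow_two _).trans
    (sq_eq_one_of_mem_closure (fun y hy => sq0 _ (l1.1 y hy)) l1.2 x.2))⟩
  obtain ⟨c, -, T, h1, h3⟩ := exists_conj_sylow le_top le_top pg_EP e3
  refine ⟨c, ?_⟩
  rw [← prod_map_cj]
  refine list_prod_mem (List.forall_mem_map.2 fun x hx => ?_)
  have t := fis_tvP.cj_mem c _ (l1.1 x hx)
  obtain ⟨j, hj, e⟩ := max_pl t fun i hi => comm_of_pg T.isPGroup' (pt_mem (iso_pl i hi)) t (h1 (pt_EP hi))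
    (h3 ⟨x, subset_closure hx, rfl⟩)
  exact e ▸ pt_EP hj

theorem out2 (a2 : ∃ u, α * α = MulAut.conj u) (b2 : ∃ u, β * β = MulAut.conj u)
    (ab : ∃ u, α * β * (α * β) = MulAut.conj u) (a1 : ∀ u, α ≠ MulAut.conj u) (b1 : ∀ u, β ≠ MulAut.conj u) :
    ∃ u, α * β = MulAut.conj u := by
  have hN : (MulAut.conj : PU6 →* MulAut PU6).range.Normal := ⟨by
    rintro _ ⟨x, rfl⟩ γ
    exact ⟨γ x, MulEquiv.ext fun y => by simp⟩⟩
  have c : Nat.card (MulAut PU6 ⧸ (MulAut.conj : PU6 →* MulAut PU6).range) = 6 := by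
    have l := card_eq_card_quotient_mul_card_subgroup (MulAut.conj : PU6 →* MulAut PU6).range
    rw [card_aut_PU6, ← Nat.card_congr (MonoidHom.ofInjective ((injective_iff_map_eq_one _).2 fun x e =>
      mem_bot.1 (fis_tvP.center_eq_bot ▸ mem_center_iff.2 fun y =>
        (mul_inv_eq_iff_eq_mul.1 (DFunLike.congr_fun e y)).symm))).toEquiv] at l
    exact (Nat.eq_of_mul_eq_mul_right Nat.card_pos l).symm
  have k : ∀ γ : MulAut PU6, QuotientGroup.mk' (MulAut.conj : PU6 →* MulAut PU6).range γ = 1 ↔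
      ∃ u, γ = MulAut.conj u := fun γ => (QuotientGroup.eq_one_iff _).trans (exists_congr fun _ => eq_comm)
  rw [← not_exists] at a1 b1
  simp only [← k, map_mul] at a1 b1 a2 b2 ab ⊢
  generalize QuotientGroup.mk' (MulAut.conj : PU6 →* MulAut PU6).range α = a at *
  generalize QuotientGroup.mk' (MulAut.conj : PU6 →* MulAut PU6).range β = b at *
  have co : Commute a b := by
    rw [Commute, SemiconjBy, ← inv_eq_of_mul_eq_one_right ab, mul_inv_rev, inv_eq_of_mul_eq_one_right a2,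
      inv_eq_of_mul_eq_one_right b2]
  have : Finite (MulAut PU6 ⧸ (MulAut.conj : PU6 →* MulAut PU6).range) :=
    Nat.finite_of_card_ne_zero (by rw [c]; decide)
  have e3 : IsPGroup 2 (closure {a, b}) := fun x => ⟨1, Subtype.ext ((pow_two _).trans
    (sq_eq_one_of_mem_closure (by rintro _ (rfl | rfl) <;> assumption)
      (by rintro _ (rfl | rfl) _ (rfl | rfl); exacts [.refl _, co, co.symm, .refl _]) x.2))⟩
  obtain ⟨n, hn⟩ := e3.exists_card_eq
  have d := card_subgroup_dvd_card (closure {a, b})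
  have d' : 2 ∣ Nat.card (closure {a, b}) := by
    rw [← orderOf_eq_prime ((pow_two a).trans a2) a1]
    exact orderOf_dvd_natCard _ (subset_closure (by simp))
  rw [c, hn] at d
  have h2 : Nat.card (closure {a, b}) = 2 := Nat.dvd_antisymm
    (hn ▸ (Nat.Coprime.pow_left n (by decide : Nat.Coprime 2 3)).dvd_of_dvd_mul_right d) d'
  obtain ⟨y, -, hy⟩ := (Nat.card_eq_two_iff' 1).1 h2
  have := (hy ⟨a, subset_closure (by simp)⟩ fun e => a1 (congrArg Subtype.val e)).trans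
    (hy ⟨b, subset_closure (by simp)⟩ fun e => b1 (congrArg Subtype.val e)).symm
  rw [← show a = b from congrArg Subtype.val this, a2]

end Cfsg.Agent.SF6
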