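import Mathlib
import Cfsg.Agent.SF6.UPl

/-! Involutions of a non-split double cover of `U₆(2)`. -/

set_option autoImplicit false
set_option maxRecDepth 100000
set_option exponentiation.threshold 100000

namespace Cfsg.Agent.SF6

open Cfsg.Agent.Spor Cfsg.Agent.Spor.TT Cfsg.Agent.Spor.FC Cfsg.Agent.T3.FPl Subgroup

variable {H : Type*} [Group H] {d a b g y : H} {π : H → PU6} {O : Set H} {P : ℕ → H} {E s x : ℕ} {w : List ℕ}

/-- `y` is the central involution of a quaternion group. -/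
def Q8 (y : H) : Prop := y ≠ 1 ∧ ∃ e f, e * e = y ∧ f * f = y ∧ e * f * (e * f) = y

/-- `w` lies over the product of a triangle. -/
def Ys (d : H) (π : H → PU6) (O : Set H) (w : H) : Prop :=
  ∃ a b c, TrO π tvP O a b c ∧ (w = a * b * c ∨ w = d * (a * b * c))

theorem Q8.cj (h : Q8 y) (g : H) : Q8 (cj g y) :=
  let ⟨h1, e, f, h2, h3, h4⟩ := h
  ⟨fun k => h1 (conj_eq_one_iff.1 k), TT.cj g e, TT.cj g f, by rw [← cj_mul, h2], by rw [← cj_mul, h3],
    by rw [← cj_mul, ← cj_mul, h4]⟩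

/-- Points given by codes. -/
structure Fr (d : H) (P : ℕ → H) : Prop where
  dd : d * d = 1
  cd : ∀ u, iso u = true → Commute d (P u)
  sq : ∀ u, iso u = true → P u * P u = 1
  cp : ∀ i < 21, ∀ j < 21, Commute (P (pl i)) (P (pl j))
  wd : ∀ w : List ℕ, (∀ u ∈ w, iso u = true) → ∀ y, iso y = true → cj (evalW P w) (P y) = P (traceP sysU.T w y)

/-- The element with coordinates `x`. -/
def eV (d : H) (P : ℕ → H) (x : ℕ) : H := cond (x.testBit 9) d 1 * evalW P (bl x 9)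

/-- A linear map on coordinates. -/
noncomputable def act (f : ℕ → ℕ) (x n : ℕ) : ℕ :=
  Nat.rec (cond (x.testBit 9) 512 0) (fun n ih => cond (x.testBit n) (Nat.xor (f n) ih) ih) n

/-- Coordinates of the points. -/
def kb (E i : ℕ) : ℕ := Nat.xor (ka i) (cond ((Nat.shiftLeft E 9).testBit i) 512 0)

/-- The word `w` permutes the points of the plane according to `s`. -/
noncomputable def sgOK (w : List ℕ) (s : ℕ) : Bool := band (allL w iso) (allLt 21 fun j =>
  band (blt (getP 5 31 s j) 21) (Nat.beq (traceP sysU.T w (pl j)) (pl (getP 5 31 s j))))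

/-- The action on coordinates. -/
noncomputable def ac (E s x : ℕ) : ℕ := act (fun j => kb E (getP 5 31 s j)) x 9

/-- `E` describes the coordinates of the points. -/
def Co (d : H) (P : ℕ → H) (E : ℕ) : Prop := ∀ i < 21, P (pl i) = eV d P (kb E i)

theorem bl_mod (x : ℕ) {n : ℕ} (hn : n ≤ 9) : bl (x % 2 ^ 9) n = bl x n := by
  induction n with
  | zero => rfl
  | succ n ih => rw [bl, bl, ih (by omega), Nat.testBit_mod_two_pow, decide_eq_true (by omega : n < 9), Bool.true_and]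

theorem ev_mod (x : ℕ) : ev (x % 2 ^ 9) = ev x := by rw [ev, bl_mod x le_rfl, ev]

theorem eV_one (x : ℕ) : eV 1 pt x = ev x := by rw [eV, Bool.cond_self, one_mul, ev]

namespace Fr

variable (h : Fr d P)
include h

theorem cW (hw : ∀ u ∈ w, iso u = true) : Commute d (evalW P w) :=
  Commute.list_prod_right _ _ (List.forall_mem_map.2 fun u hu => h.cd u (hw u hu))

theorem cB {i n : ℕ} (hi : i < 21) (hn : n ≤ 21) (x : ℕ) : Commute (P (pl i)) (evalW P (bl x n)) :=
  Commute.list_prod_right _ _ (List.forall_mem_map.2 fun _ hu => let ⟨j, hj, e⟩ := mem_bl hu; e ▸ h.cp i hi j (by omega))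

theorem xor' (a b : ℕ) {n : ℕ} (hn : n ≤ 21) :
    evalW P (bl (a ^^^ b) n) = evalW P (bl a n) * evalW P (bl b n) := by
  induction n with
  | zero => exact (one_mul _).symm
  | succ n ih =>
    have h3 := (h.cB (i := n) (n := n) (by omega) (by omega) a).eq
    have h4 := h.sq _ (iso_pl n (by omega))
    rw [bl, bl, bl, Nat.testBit_xor]
    cases a.testBit n <;> cases b.testBit n <;>
      simp only [Bool.xor_false, Bool.xor_true, Bool.not_false, Bool.not_true, cond_true, cond_false,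
        evalW_cons, ih (by omega)]
    · rw [← mul_assoc, h3, mul_assoc]
    · rw [mul_assoc]
    · rw [h3, mul_assoc, ← mul_assoc (P (pl n)), h4, one_mul]

theorem xor (a b : ℕ) : eV d P (a ^^^ b) = eV d P a * eV d P b := by
  have h3 := (h.cW (iso_bl a)).eq
  rw [eV, eV, eV, h.xor' a b (by decide), Nat.testBit_xor]
  cases a.testBit 9 <;> cases b.testBit 9 <;>
    simp only [Bool.xor_false, Bool.xor_true, Bool.not_false, Bool.not_true, cond_true, cond_false, one_mul]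
  · rw [← mul_assoc, h3, mul_assoc]
  · rw [mul_assoc]
  · rw [h3, mul_assoc, ← mul_assoc d, h.dd, one_mul]

omit h in
theorem zero : eV d P 0 = 1 := one_mul 1

omit h in
theorem top : eV d P 512 = d := mul_one d

theorem sqV (a : ℕ) : eV d P a * eV d P a = 1 := by rw [← h.xor, Nat.xor_self, zero]

theorem cV (a : ℕ) : Commute d (eV d P a) := by
  refine Commute.mul_right ?_ (h.cW (iso_bl a))
  cases a.testBit 9
  exacts [Commute.one_right d, Commute.refl d]

theorem cj_act {f : ℕ → ℕ} (hg : Commute d g) (hf : ∀ j < 9, cj g (P (pl j)) = eV d P (f j)) (x : ℕ) {n : ℕ}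
    (hn : n ≤ 9) : cj g (cond (x.testBit 9) d 1 * evalW P (bl x n)) = eV d P (act f x n) := by
  induction n with
  | zero =>
    show cj g (_ * 1) = eV d P (cond _ _ _)
    cases x.testBit 9
    · exact (congrArg _ (one_mul 1)).trans ((cj_one_right g).trans zero.symm)
    · exact (congrArg _ (mul_one d)).trans ((cj_of_commute hg.symm).trans top.symm)
  | succ n ih =>
    show cj g (_ * evalW P (cond _ _ _)) = eV d P (cond _ (f n ^^^ act f x n) (act f x n))
    cases x.testBit n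
    · exact ih (by omega)
    · have c : Commute (cond (x.testBit 9) d 1) (P (pl n)) := by
        cases x.testBit 9
        exacts [Commute.one_left _, h.cd _ (iso_pl n (by omega))]
      rw [cond_true, cond_true, evalW_cons, c.left_comm, cj_mul, ih (by omega), hf n (by omega), h.xor]

theorem cj_pl (hw : sgOK w s = true) {j : ℕ} (hj : j < 21) : getP 5 31 s j < 21 ∧
    cj (evalW P w) (P (pl j)) = P (pl (getP 5 31 s j)) := by
  simp only [sgOK, band_iff, allL_iff, allLt_iff, blt_iff, nbeq_iff] at hw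
  exact ⟨(hw.2 j hj).1, by rw [h.wd w hw.1 _ (iso_pl j hj), (hw.2 j hj).2]⟩

theorem cj_ac (hE : Co d P E) (hw : sgOK w s = true) (x : ℕ) : cj (evalW P w) (eV d P x) = eV d P (ac E s x) :=
  h.cj_act (h.cW ((allL_iff _ _).1 ((band_iff _ _).1 hw).1))
    (fun j hj => by rw [(h.cj_pl hw (by omega)).2, hE _ (h.cj_pl hw (by omega)).1]) x le_rfl

end Fr

theorem fr_pt : Fr 1 pt :=
  ⟨one_mul 1, fun _ _ => Commute.one_left _, fun _ hu => sq0 _ (pt_mem hu), fun _ hi _ hj => comm_pl hi hj,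
    fun _ hw _ hy => cj_word hw hy⟩

theorem co_pt : Co 1 pt 0 := fun i hi => by
  rw [eV_one, pt_pl hi]
  exact congrArg ev (by simp [kb])

theorem max3 {u : PU6} (hx : u ∈ tvP) (h : ∀ i < 3, Commute (pt (pl i)) u) : ∃ j < 21, u = pt (pl j) := by
  have k : allRange 0 4096 (fun w => bor (!band (iso w) (allLt 3 fun i => Nat.beq (fm w (pl i)) 0))
      (force (nrm w) fun v => !allLt 21 fun j => !Nat.beq v (pl j))) = true := by decide +kernel
  obtain ⟨w, iw, rfl⟩ := exists_code hx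
  have k1 := allRange_zero k w (iso_iff.1 iw).1
  rw [iw, (allLt_iff _ _).2 fun i hi => (nbeq_iff _ _).2
    ((ufr0.commute_code (iso_pl i (by omega)) iw).1 (h i hi)), bor_iff, force_eq] at k1
  have k2 := k1.resolve_left (by decide)
  simp only [Bool.not_eq_true', ← Bool.not_eq_true, allLt_iff, not_forall, not_not, nbeq_iff] at k2
  obtain ⟨j, hj, e⟩ := k2
  exact ⟨j, hj, (ufr0.nrm iw).symm.trans (by rw [e]; rfl)⟩

/-- The lifts of the points. -/
structure Lf (d : H) (π : H → PU6) (O : Set H) (P : ℕ → H) : Prop where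
  cov : Cov d π tvP O
  pts : ∀ u, iso u = true → P u ∈ O ∧ π (P u) = pt u
  fr : Fr d P

theorem exists_lf (h : Cov d π tvP O) : ∃ P, Lf d π O P := by
  have : ∀ v, ∃ a, Iso v → a ∈ O ∧ π a = ρ0 v := fun v => by
    by_cases hv : Iso v
    · exact let ⟨a, k⟩ := h.lift (ufr0.mem v hv); ⟨a, fun _ => k⟩
    · exact ⟨1, fun k => absurd k hv⟩
  choose ρ hρ using this
  have k := fun u (hu : iso u = true) => hρ _ (iso_iff.1 hu).2
  refine ⟨fun u => ρ (dec u), h, k, h.sq, fun u hu => h.comm _ (k u hu).1, fun u hu => h.sq' (k u hu).1,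
    fun i hi j hj => (h.commute_iff (k _ (iso_pl i hi)).1 (k _ (iso_pl j hj)).1).1 ?_,
    fun w hw y hy => (((h.ufr hρ).real fun _ => h.sq').word hw hy).2⟩
  rw [(k _ (iso_pl i hi)).2, (k _ (iso_pl j hj)).2]
  exact comm_pl hi hj

namespace Lf

variable (h : Lf d π O P)
include h

theorem mem {i : ℕ} (hi : i < 21) : P (pl i) ∈ O := (h.pts _ (iso_pl i hi)).1

theorem map {i : ℕ} (hi : i < 21) : π (P (pl i)) = pt (pl i) := (h.pts _ (iso_pl i hi)).2

theorem mapW (hw : ∀ u ∈ w, iso u = true) : π (evalW P w) = evalW pt w := by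
  induction w with
  | nil => exact h.cov.one
  | cons u w ih =>
    rw [List.forall_mem_cons] at hw
    rw [evalW_cons, evalW_cons, h.cov.mul _ _ (h.fr.cd u hw.1) (h.fr.cW hw.2), ih hw.2, (h.pts u hw.1).2]

theorem mapV (x : ℕ) : π (eV d P x) = ev x := by
  rw [eV]
  cases x.testBit 9
  · rw [cond_false, one_mul, h.mapW (iso_bl x), ev]
  · rw [cond_true, h.cov.d_mul (h.fr.cW (iso_bl x)), h.mapW (iso_bl x), ev]

theorem inj {x y : ℕ} (hx : x < 2 ^ 10) (hy : y < 2 ^ 10) (e : eV d P x = eV d P y) : x = y := by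
  have e1 : eV d P (x ^^^ y) = 1 := by rw [h.fr.xor, e, h.fr.sqV]
  have l := Nat.xor_lt_two_pow hx hy
  rw [← Nat.xor_eq_zero_iff]
  generalize x ^^^ y = z at e1 l
  have e2 := ev_eq_one (Nat.mod_lt z (by decide)) (by rw [ev_mod, ← h.mapV, e1, h.cov.one])
  obtain rfl | rfl : z = 0 ∨ z = 512 := by omega
  exacts [rfl, absurd (Fr.top.symm.trans e1) h.cov.ne_one]

theorem sqW (hw : trivU (w ++ w) = true) : evalW P w * evalW P w = 1 := by
  have k : ∀ u ∈ w, iso u = true := fun u hu =>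
    (allL_iff _ _).1 ((band_iff _ _).1 hw).1 u (List.mem_append_left _ hu)
  exact h.cov.lift_sq (h.fr.cW k) (by rw [h.mapW k, ← evalW_append]; exact eq_one_of_triv hw)

theorem exists_co : ∃ E < 4096, Co d P E := by
  have : ∀ i, ∃ b : Bool, i < 21 → P (pl i) = eV d P (ka i ^^^ cond b 512 0) ∧ (i < 9 → b = false) := fun i => by
    by_cases h9 : i < 9
    · refine ⟨false, fun _ => ⟨?_, fun _ => rfl⟩⟩
      interval_cases i <;> exact ((one_mul _).trans (mul_one _)).symm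
    by_cases hi : i < 21
    swap
    · exact ⟨false, fun k => absurd k hi⟩
    rcases h.cov.eq_or (h.fr.cV (ka i)) (h.fr.cd _ (iso_pl i hi)) (by rw [h.mapV, h.map hi, pt_pl hi]) with e | e
    · exact ⟨false, fun _ => ⟨by simpa using e, fun k => absurd k h9⟩⟩
    · exact ⟨true, fun _ => ⟨by rw [e, h.fr.xor, cond_true, Fr.top, (h.fr.cV _).eq], fun k => absurd k h9⟩⟩
  choose b hb using this
  refine ⟨Nat.ofBits fun j : Fin 12 => b (j + 9), Nat.ofBits_lt_two_pow _, fun i hi => ?_⟩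
  rw [(hb i hi).1]
  congr 3
  rw [Nat.shiftLeft_eq', Nat.testBit_shiftLeft, Nat.testBit_ofBits]
  by_cases h9 : i < 9
  · rw [(hb i hi).2 h9, decide_eq_false (by omega), Bool.false_and]
  · rw [decide_eq_true (by omega), Bool.true_and, dif_pos (by omega)]
    congr 1
    simp only
    omega

end Lf

/-- The coordinates are invariant under a permutation. -/
noncomputable def invOK (E s : ℕ) : Bool :=
  allLt 12 fun i => Nat.beq (kb E (getP 5 31 s (i + 9))) (ac E s (kb E (i + 9)))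

theorem kb_lt (E : ℕ) {i : ℕ} (hi : i < 21) : kb E i < 2 ^ 10 :=
  Nat.xor_lt_two_pow ((ka_lt i hi).trans (by decide)) (by cases (Nat.shiftLeft E 9).testBit i <;> decide)

theorem act_lt {f : ℕ → ℕ} (hf : ∀ j < 9, f j < 2 ^ 10) (x : ℕ) {n : ℕ} (hn : n ≤ 9) : act f x n < 2 ^ 10 := by
  induction n with
  | zero => show cond _ _ _ < _; cases x.testBit 9 <;> decide
  | succ n ih =>
    show cond _ (f n ^^^ act f x n) (act f x n) < _
    cases x.testBit n
    exacts [ih (by omega), Nat.xor_lt_two_pow (hf n (by omega)) (ih (by omega))]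

theorem Lf.invOK (h : Lf d π O P) (hE : Co d P E) (hw : sgOK w s = true) : invOK E s = true :=
  (allLt_iff _ _).2 fun i hi => (nbeq_iff _ _).2 (by
    have k := fun j (hj : j < 21) => h.fr.cj_pl hw hj
    refine h.inj (kb_lt E (k _ (by omega)).1) (act_lt (fun j hj => kb_lt E (k _ (by omega)).1) _ le_rfl) ?_
    rw [← hE _ (k _ (by omega)).1, ← (k _ (by omega)).2, hE _ (by omega)]
    exact h.fr.cj_ac hE hw _)

theorem Lf.cases [Finite H] (h : Lf d π O P) (hE : Co d P E) (lt : E < 4096)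
    (hl : evalW P [90, 85, 80, 5, 95] = d) : E ∈ [499, 1831, 2955] := by
  have k : allRange 0 4096 (fun E => bor (!band (Nat.beq (kb E 9) 539) (band (SF6.invOK E 0x14430a26b9f252c1339a240c069)
      (band (SF6.invOK E 0xe7a2119d0614a972218a768980) (SF6.invOK E 0x50c9d0344ec00d096be8450a6b))))
      (bor (Nat.beq E 3423) (decide (E ∈ [499, 1831, 2955])))) = true := by decide +kernel
  have k1 := allRange_zero k E lt
  rw [h.invOK hE (w := [279, 440]) (by decide +kernel), h.invOK hE (w := [96, 1466]) (by decide +kernel),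
    h.invOK hE (w := [18, 1401]) (by decide +kernel), (nbeq_iff _ _).2 (h.inj (kb_lt E (by decide)) (by decide) ?_),
    bor_iff, bor_iff, nbeq_iff, decide_eq_true_eq] at k1
  · refine (k1.resolve_left (by decide)).resolve_left ?_
    rintro rfl
    obtain ⟨a, b, c, a', b', c', t, t', k, e⟩ := h.cov.hexU
    obtain ⟨u, e1, e2, e3⟩ := h.cov.bs.tri _ _ _ _ _ _ t.trg trg0
    obtain ⟨g, hg, rfl⟩ := h.cov.surj u
    have f1 := h.cov.cj_eq hg t.ma (h.mem (i := 0) (by decide)) (e1.trans (h.map (i := 0) (by decide)).symm)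
    have f2 := h.cov.cj_eq hg t.mb (h.mem (i := 1) (by decide)) (e2.trans (h.map (i := 1) (by decide)).symm)
    have f3 := h.cov.cj_eq hg t.mc (h.mem (i := 2) (by decide)) (e3.trans (h.map (i := 2) (by decide)).symm)
    have m : ∀ y ∈ O, y ∈ [a', b', c'] → ∃ j < 21, cj g y = P (pl j) := fun y hy l => by
      obtain ⟨j, hj, e⟩ := max3 (h.cov.mem (h.cov.cj_mem hg hy)) fun i hi => by
        rw [h.cov.cj hg (h.cov.comm y hy)]
        interval_cases i
        exacts [(show _ = pt (pl 0) from e1) ▸ commute_cj.2 (k a (by simp) y l).2,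
          (show _ = pt (pl 1) from e2) ▸ commute_cj.2 (k b (by simp) y l).2,
          (show _ = pt (pl 2) from e3) ▸ commute_cj.2 (k c (by simp) y l).2]
      exact ⟨j, hj, (h.cov.inj (h.cov.cj_mem hg hy) (h.mem hj)).1 (e.trans (h.map hj).symm)⟩
    obtain ⟨i, hi, g1⟩ := m a' t'.ma (by simp)
    obtain ⟨j, hj, g2⟩ := m b' t'.mb (by simp)
    obtain ⟨l, hl, g3⟩ := m c' t'.mc (by simp)
    have := congrArg (cj g) e
    rw [cj_of_commute hg.symm, cj_mul, cj_mul, cj_mul, cj_mul, cj_mul, f1, f2, f3, g1, g2, g3, hE 0 (by decide),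
      hE 1 (by decide), hE 2 (by decide), hE i hi, hE j hj, hE l hl, ← h.fr.xor, ← h.fr.xor, ← h.fr.xor, ← h.fr.xor,
      ← h.fr.xor] at this
    have := h.inj (Nat.xor_lt_two_pow (by decide +kernel) (Nat.xor_lt_two_pow (Nat.xor_lt_two_pow (kb_lt _ hi)
      (kb_lt _ hj)) (kb_lt _ hl))) (by decide) (this.trans (Fr.top (P := P)).symm)
    revert i j l
    have : ∀ i < 21, ∀ j < 21, ∀ l < 21,
      kb 3423 0 ^^^ kb 3423 1 ^^^ kb 3423 2 ^^^ (kb 3423 i ^^^ kb 3423 j ^^^ kb 3423 l) ≠ 512 := by decide +kernel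
    exact fun i hi _ j hj _ l hl _ _ => this i hi j hj l hl
  · have e1 : eV d P 27 * P (pl 9) = d := by
      refine Eq.trans ?_ hl
      show 1 * (P 90 * (P 85 * (P 80 * (P 5 * 1)))) * P 95 = P 90 * (P 85 * (P 80 * (P 5 * (P 95 * 1))))
      simp only [mul_one, one_mul, mul_assoc]
    rw [← hE 9 (by decide), show 539 = 27 ^^^ 512 from rfl, h.fr.xor, Fr.top]
    calc _ = eV d P 27 * (eV d P 27 * P (pl 9)) := by rw [← mul_assoc, h.fr.sqV, one_mul]
      _ = _ := by rw [e1]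

/-- A certificate for a quaternion group. -/
noncomputable def qOK (E y : ℕ) (w₁ w₂ : List ℕ) (s₁ s₂ v₁ v₂ : ℕ) : Bool :=
  band (band (sgOK w₁ s₁) (sgOK w₂ s₂)) <| band (band (trivU (w₁ ++ w₁)) (band (trivU (w₂ ++ w₂))
    (trivU (w₁ ++ w₂ ++ (w₁ ++ w₂))))) <| band (band (blt 0 y) (blt y 1024)) <|
    band (Nat.beq (Nat.xor v₁ (ac E s₁ v₁)) y) <| band (Nat.beq (Nat.xor v₂ (ac E s₂ v₂)) y) <|
      force (Nat.xor v₁ (ac E s₁ v₂)) fun v => Nat.beq (Nat.xor v (ac E s₁ (ac E s₂ v))) y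

theorem sq_mul {v X : H} (hX : X * X = 1) : v * X * (v * X) = v * cj X v := by
  rw [cj_def, inv_eq_of_mul_eq_one_right hX]; group

theorem Lf.q8 (h : Lf d π O P) (hE : Co d P E) {y : ℕ} {w₁ w₂ : List ℕ} {s₁ s₂ v₁ v₂ : ℕ}
    (k : qOK E y w₁ w₂ s₁ s₂ v₁ v₂ = true) : Q8 (eV d P y) := by
  simp only [qOK, band_iff, blt_iff, nbeq_iff, force_eq] at k
  obtain ⟨⟨a1, a2⟩, ⟨b1, b2, b3⟩, ⟨c1, c2⟩, d1, d2, d3⟩ := k
  have b4 := h.sqW b3
  rw [evalW_append] at b4
  refine ⟨fun e => c1.ne' (h.inj c2 (by decide) (e.trans Fr.zero.symm)), eV d P v₁ * evalW P w₁,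
    eV d P v₂ * evalW P w₂, ?_, ?_, ?_⟩
  · rw [sq_mul (h.sqW b1), h.fr.cj_ac hE a1, ← h.fr.xor]; exact congrArg _ d1
  · rw [sq_mul (h.sqW b2), h.fr.cj_ac hE a2, ← h.fr.xor]; exact congrArg _ d2
  · rw [show eV d P v₁ * evalW P w₁ * (eV d P v₂ * evalW P w₂) =
      eV d P v₁ * cj (evalW P w₁) (eV d P v₂) * (evalW P w₁ * evalW P w₂) by rw [cj_def]; group,
      sq_mul b4, ← cj_cj, h.fr.cj_ac hE a1, ← h.fr.xor, h.fr.cj_ac hE a2, h.fr.cj_ac hE a1, ← h.fr.xor]
    exact congrArg _ d3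

theorem Lf.q8s (h : Lf d π O P) (hE : Co d P E) (m : E ∈ [499, 1831, 2955]) :
    Q8 (eV d P 513) ∧ Q8 (eV d P 3) ∧ Q8 (eV d P 515) := by
  have k : ∀ E ∈ [499, 1831, 2955], qOK E 513 [96, 101] [96, 106] 0x13a464873d676a870618a148880
    0x128d26f820eb6282e698a320920 10 18 = true := by decide +kernel
  refine ⟨h.q8 hE (k E m), ?_⟩
  simp only [List.mem_cons, List.not_mem_nil, or_false] at m
  rcases m with rfl | rfl | rfl
  · exact ⟨h.q8 hE (w₁ := [17, 68]) (w₂ := [1553, 1604]) (s₁ := 0x14835537b24e5c4862a0e918801)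
      (s₂ := 0xb2c9c7145aaa308881a691bc01) (v₁ := 5) (v₂ := 240) (by decide +kernel),
      h.q8 hE (w₁ := [1536, 1626]) (w₂ := [1536, 1701]) (s₁ := 0x75b1a229a329a12aa39e41c020)
      (s₂ := 0x5128cb3b5c88492c7c6841cc20) (v₁ := 160) (v₂ := 356) (by decide +kernel)⟩
  · exact ⟨h.q8 hE (w₁ := [17, 68]) (w₂ := [1587, 1740]) (s₁ := 0x14835537b24e5c4862a0e918801)
      (s₂ := 0xf99990a29111388d3c8a91ac01) (v₁ := 5) (v₂ := 368) (by decide +kernel),
      h.q8 hE (w₁ := [1536, 1621]) (w₂ := [1536, 1711]) (s₁ := 0xb3b58512a51a39269a2041bc20)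
      (s₂ := 0x6508ac69df044d2b752241c820) (v₁ := 228) (v₂ := 320) (by decide +kernel)⟩
  · exact ⟨h.q8 hE (w₁ := [17, 68]) (w₂ := [1570, 1672]) (s₁ := 0x14835537b24e5c4862a0e918801)
      (s₂ := 0x23a2255b8cc7a8929b6091d001) (v₁ := 5) (v₂ := 213) (by decide +kernel),
      h.q8 hE (w₁ := [1536, 1621]) (w₂ := [1536, 1711]) (s₁ := 0xb3b58512a51a39269a2041bc20)
      (s₂ := 0x6508ac69df044d2b752241c820) (v₁ := 228) (v₂ := 320) (by decide +kernel)⟩

namespace Lf

variable (h : Lf d π O P)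
include h

omit h in
theorem e1 : eV d P 1 = P (pl 0) := (one_mul _).trans (mul_one _)

theorem e3 : eV d P 3 = P (pl 0) * P (pl 1) := by
  rw [(h.fr.cp 0 (by decide) 1 (by decide)).eq]
  exact (one_mul _).trans (congrArg _ (mul_one _))

theorem e7 : eV d P 7 = P (pl 0) * P (pl 1) * P (pl 2) := by
  rw [← h.e3, show 7 = 3 ^^^ 4 from rfl, h.fr.xor]
  exact congrArg _ ((one_mul _).trans (mul_one _))

theorem dx : P (pl 1) ∈ Dx O (P (pl 0)) :=
  ⟨h.mem (by decide), fun e => cl0.ab (((h.map (i := 0) (by decide)).symm.trans (congrArg π e.symm)).trans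
    (h.map (i := 1) (by decide))), h.fr.cp 0 (by decide) 1 (by decide)⟩

theorem tro : TrO π tvP O (P (pl 0)) (P (pl 1)) (P (pl 2)) :=
  ⟨h.mem (by decide), h.mem (by decide), h.mem (by decide), by
    rw [h.map (by decide), h.map (by decide), h.map (by decide)]; exact trg0⟩

theorem core {y : ℕ} {l : List (List ℕ × ℕ)} (ha : Commute d a)
    (hc : ∀ n, Commute d n → Commute n (eV d P y) → Commute n a) (hy : y.testBit 9 = false)
    (k1 : ∀ e ∈ l, sgOK e.1 e.2 = true ∧ ((bl y 9).map (traceP sysU.T e.1)).Perm (bl y 9))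
    (k2 : allRange 0 512 (fun x => bor (!allL l fun e => Nat.beq (Nat.mod (ac 0 e.2 x) 512) x) (bor (Nat.beq x 0) (Nat.beq x y))) = true) :
    π a = 1 ∨ π a = ev y := by
  have c1 : ∀ n, Commute d n → Commute n (eV d P y) → cj (π n) (π a) = π a := fun n c c' => by
    rw [← h.cov.cj c ha, cj_of_commute (hc n c c')]
  obtain ⟨_, ⟨x, rfl⟩, e⟩ := Fx.exists (α := MulAut.conj (π a)) fun i hi => cj_of_commute (by
    have := c1 _ (h.fr.cd _ (iso_pl i hi)) (by rw [eV, hy, cond_false, one_mul]; exact h.fr.cB hi (by decide) y)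
    rw [h.map hi] at this
    exact (cj_eq_self_iff.1 this).symm)
  have e2 : π a = ev (x % 2 ^ 9) := by
    rw [ev_mod, ← inv_mul_eq_one, ← mem_bot, ← fis_tvP.center_eq_bot, mem_center_iff]
    intro g
    have := DFunLike.congr_fun e g
    simp only [MulAut.conj_apply] at this
    rw [← mul_assoc, eq_comm, ← mul_inv_eq_iff_eq_mul, mul_assoc _ (ev x), mul_assoc, ← this]
    group
  have lt : x % 2 ^ 9 < 2 ^ 9 := Nat.mod_lt _ (by decide)
  generalize x % 2 ^ 9 = x at e2 lt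
  have k3 := allRange_zero k2 x lt
  rw [(allL_iff _ _).2 fun e he => (nbeq_iff _ _).2 ?_, bor_iff, bor_iff, nbeq_iff, nbeq_iff] at k3
  · rcases k3.resolve_left (by decide) with rfl | rfl
    exacts [Or.inl e2, Or.inr e2]
  have iw := (allL_iff _ _).1 ((band_iff _ _).1 (k1 e he).1).1
  have := c1 _ (h.fr.cW iw) (cj_eq_self_iff.1 (by
    rw [eV, hy, cond_false, one_mul, evalW, evalW, ← prod_map_cj, List.map_map]
    refine Eq.trans (congrArg List.prod ?_) (((k1 e he).2.map P).symm.prod_eq' ?_).symm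
    · rw [List.map_map]
      exact List.map_congr_left fun u hu => h.fr.wd _ iw u (iso_bl y u hu)
    · refine List.pairwise_of_forall_mem_list (List.forall_mem_map.2 fun u hu => List.forall_mem_map.2 fun v hv => ?_)
      obtain ⟨i, hi, rfl⟩ := mem_bl hu
      obtain ⟨j, hj, rfl⟩ := mem_bl hv
      exact h.fr.cp i (by omega) j (by omega)))
  rw [e2, h.mapW iw, ← eV_one, fr_pt.cj_ac co_pt (k1 e he).1, eV_one, eV_one] at this
  exact ev_inj (Nat.mod_lt _ (by decide)) lt ((ev_mod _).trans this)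

theorem plane {u : PU6} (hu : u ∈ tvP) (c : ∀ i < 21, Commute (pt (pl i)) u) : ∃ j < 21, u = ev (ka j) :=
  let ⟨j, hj, e⟩ := max_pl hu c; ⟨j, hj, e.trans (pt_pl hj)⟩

theorem ys (hx : x < 2 ^ 9) (h0 : m2 x = false) (h1 : ∀ j < 21, x ≠ ka j) : Ys d π O (eV d P x) := by
  have lt : ∀ a < 21, ∀ b < 21, ka a ^^^ ka b < 2 ^ 9 := fun a ha b hb =>
    Nat.xor_lt_two_pow (ka_lt a ha) (ka_lt b hb)
  have n : ∀ a < 21, ∀ b < 21, ev x ≠ ev (ka a) * ev (ka b) := fun a ha b hb e => by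
    rw [(m2_iff hx).2 ⟨a, ha, b, hb, ev_inj hx (lt a ha b hb) (e.trans (ev_xor _ _).symm)⟩] at h0
    exact absurd h0 (by decide)
  obtain ⟨s, e, l⟩ := h.cov.cases (h.fr.cV x) (by rw [h.mapV, ev_sq])
  have e2 : Commute d s → π s = ev x := fun c => by
    rw [← h.mapV]
    rcases e with e | e <;> rw [e]
    rw [h.cov.d_mul c]
  rcases l with rfl | l | ⟨a, ha, b, hb, rfl⟩ | ⟨a, b, c, l, rfl⟩
  · exact absurd ((e2 (Commute.one_right d)).symm.trans (h.cov.one.trans (ev_sq _).symm)) (n 0 (by decide) 0 (by decide))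
  · have e3 := e2 (h.cov.comm s l)
    obtain ⟨j, hj, e4⟩ := h.plane (h.cov.mem l) fun i hi => e3 ▸ comm_ev hi (by decide) x
    exact absurd (ev_inj hx (ka_lt j hj) (e3.symm.trans e4)) (h1 j hj)
  · have e3 := e2 ((h.cov.comm a ha).mul_right (h.cov.comm b hb.1))
    rw [h.cov.map_two ha hb.1] at e3
    have c := fun i hi => fis_tvP.set.commute_of_commute_mul (h.cov.mem ha) (h.cov.mem hb.1) (pt_mem (iso_pl i hi))
      (fun e => hb.2.1 ((h.cov.inj ha hb.1).1 e).symm) (e3 ▸ (comm_ev hi (by decide) x).symm)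
    obtain ⟨i, hi, e4⟩ := h.plane (h.cov.mem ha) fun i hi => (c i hi).1.symm
    obtain ⟨j, hj, e5⟩ := h.plane (h.cov.mem hb.1) fun i hi => (c i hi).2.symm
    exact absurd (by rw [← e3, e4, e5]) (n i hi j hj)
  · exact ⟨a, b, c, l, e⟩

theorem two (hq : ∀ a ∈ O, ∀ b ∈ Dx O a, Q8 (a * b) ∧ Q8 (d * (a * b))) (hx : x < 2 ^ 9) (h0 : m2 x = true)
    (h1 : x ≠ 0) : Q8 (eV d P x) := by
  obtain ⟨i, hi, j, hj, rfl⟩ := (m2_iff hx).1 h0
  have := hq _ (h.mem hi) _ ⟨h.mem hj, fun e => h1 (Nat.xor_eq_zero_iff.2 (ev_inj (ka_lt i hi) (ka_lt j hj) (by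
    rw [← pt_pl hi, ← pt_pl hj, ← h.map hi, ← h.map hj, e]))), h.fr.cp i hi j hj⟩
  rcases h.cov.eq_or ((h.fr.cd _ (iso_pl i hi)).mul_right (h.fr.cd _ (iso_pl j hj))) (h.fr.cV (ka i ^^^ ka j)) (by
    rw [h.cov.map_two (h.mem hi) (h.mem hj), h.map hi, h.map hj, h.mapV, ev_xor, pt_pl hi, pt_pl hj]) with e | e <;>
    rw [e]
  exacts [this.1, this.2]

end Lf

theorem l4 (h : Cov d π tvP O) (hb : Commute d b) (b2 : b * b = 1) (b1 : π b ≠ 1) (ha : Commute d a)
    (hc : ∀ n, Commute d n → Commute n b → Commute n a) : π a = 1 ∨ π a = π b := by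
  obtain ⟨P, k⟩ := exists_lf h
  obtain ⟨s, e, l⟩ := h.cases hb (by rw [← h.mul _ _ hb hb, b2, h.one])
  have key : ∀ g y, Commute d g → Commute d s → cj g s = eV d P y → (∀ a, Commute d a →
      (∀ n, Commute d n → Commute n (eV d P y) → Commute n a) → π a = 1 ∨ π a = ev y) → π a = 1 ∨ π a = π b :=
    fun g y hg hs e1 k1 => by
      have e2 : π b = π s := by
        rcases e with e | e <;> rw [e]
        rw [h.d_mul hs]
      have := k1 (cj g a) (commute_cj_of_commute hg ha) fun n n1 n2 => commute_cj_right.2 (hc _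
        (commute_cj_of_commute hg.inv_right n1) (by
          rw [← e1, commute_cj_right] at n2
          rcases e with e | e <;> rw [e]
          exacts [n2, (commute_cj_of_commute hg.inv_right n1).symm.mul_right n2]))
      rw [← k.mapV, ← e1, h.cj hg ha, h.cj hg hs, cj_inj, ← e2] at this
      exact this.imp_left conj_eq_one_iff.1
  rcases l with rfl | l | ⟨p, hp, q, hq, rfl⟩ | ⟨p, q, r, l, rfl⟩
  · refine absurd ?_ b1
    rcases e with e | e <;> rw [e]
    exacts [h.one, by rw [mul_one, h.self]]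
  · obtain ⟨g, hg, e1⟩ := h.exists_cj l (k.mem (i := 0) (by decide))
    exact key g 1 hg (h.comm s l) (e1.trans Lf.e1.symm) fun a a1 a2 => k.core (l := [([96, 1376],
      0x34902c5b5d07aa67418b2a0a20), ([272, 1088], 0xe83d13951ac5a5513906628440)]) a1 a2 rfl (by decide +kernel)
      (by decide +kernel)
  · obtain ⟨g, hg, e1, e2⟩ := h.exists_pair hp hq (k.mem (i := 0) (by decide)) k.dx
    exact key g 3 hg ((h.comm p hp).mul_right (h.comm q hq.1)) (by rw [cj_mul, e1, e2, k.e3]) fun a a1 a2 =>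
      k.core (l := [([17, 68], 0x14835537b24e5c4862a0e918801), ([18, 72], 0xe5c8b06d1ec9a06a31e2448801),
        ([278, 329], 0x5749667cc488a92c3c28323401)]) a1 a2 rfl (by decide +kernel) (by decide +kernel)
  · obtain ⟨g, hg, e1⟩ := h.exists_tri l k.tro
    exact key g 7 hg (((h.comm p l.ma).mul_right (h.comm q l.mb)).mul_right (h.comm r l.mc)) (e1.trans k.e7.symm)
      fun a a1 a2 => k.core (l := [([17, 68], 0x14835537b24e5c4862a0e918801), ([18, 72], 0xe5c8b06d1ec9a06a31e2448801),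
        ([257, 1028], 0xc848936b9f4599091a8b138022)]) a1 a2 rfl (by decide +kernel) (by decide +kernel)

theorem exists_line (h : Cov d π tvP O) : ∃ O P, Lf d π O P ∧ evalW P [90, 85, 80, 5, 95] = d := by
  obtain ⟨P, k⟩ := exists_lf h
  have i : ∀ u ∈ [90, 85, 80, 5, 95], iso u = true := by decide +kernel
  rcases (h.ker _ (k.fr.cW i)).1 ((k.mapW i).trans (eq_one_of_triv (by decide +kernel))) with e | e
  swap
  · exact ⟨O, P, k, e⟩
  obtain ⟨Q, k'⟩ := exists_lf h.swap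
  refine ⟨_, Q, k', ?_⟩
  have := prod_map_mul (d := d) (l := [90, 85, 80, 5, 95].map P) (List.forall_mem_map.2 fun u hu => k.fr.cd u (i u hu))
  rw [List.map_map, List.length_map, h.odd_pow (by decide), show (List.map P _).prod = 1 from e, mul_one] at this
  rw [← this]
  refine congrArg List.prod (List.map_congr_left fun u hu => ?_)
  exact (h.swap.inj (k'.pts u (i u hu)).1 ⟨_, (k.pts u (i u hu)).1, rfl⟩).1 (by
    rw [(k'.pts u (i u hu)).2, h.d_mul (k.fr.cd u (i u hu)), (k.pts u (i u hu)).2])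

theorem exists_good [Finite H] (h : Cov d π tvP O) : ∃ O, Cov d π tvP O ∧ (∀ a ∈ O, Q8 (d * a)) ∧
    (∀ a ∈ O, ∀ b ∈ Dx O a, Q8 (a * b) ∧ Q8 (d * (a * b))) ∧
    ∃ a b c, TrO π tvP O a b c ∧ ∃ E : Subgroup H, (∀ w ∈ E, w * w = 1) ∧ a * b * c ∈ E ∧
      ∃ p ∈ E, ∃ q ∈ E, ∃ r ∈ E, ∀ w ∈ [p, q, r, p * q, p * r, q * r, p * q * r],
        Q8 w ∧ Ys d π O (a * b * c * w) := by
  obtain ⟨O, P, k, hl⟩ := exists_line h
  obtain ⟨E, lt, hE⟩ := k.exists_co
  obtain ⟨q1, q2, q3⟩ := k.q8s hE (k.cases hE lt hl)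
  rw [show 513 = 512 ^^^ 1 from rfl, k.fr.xor, Fr.top, Lf.e1] at q1
  rw [show 515 = 512 ^^^ 3 from rfl, k.fr.xor, Fr.top, k.e3] at q3
  rw [k.e3] at q2
  have hq : ∀ a ∈ O, ∀ b ∈ Dx O a, Q8 (a * b) ∧ Q8 (d * (a * b)) := fun a ha b hb => by
    obtain ⟨g, hg, rfl, rfl⟩ := k.cov.exists_pair (k.mem (i := 0) (by decide)) k.dx ha hb
    exact ⟨cj_mul g _ _ ▸ q2.cj g, by simpa only [cj_mul, cj_of_commute hg.symm] using q3.cj g⟩
  refine ⟨O, k.cov, fun a ha => ?_, hq, _, _, _, k.tro,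
    { carrier := Set.range (eV d P)
      one_mem' := ⟨0, Fr.zero⟩
      mul_mem' := by rintro _ _ ⟨a, rfl⟩ ⟨b, rfl⟩; exact ⟨_, k.fr.xor a b⟩
      inv_mem' := by rintro _ ⟨a, rfl⟩; exact ⟨a, (inv_eq_of_mul_eq_one_right (k.fr.sqV a)).symm⟩ },
    by rintro _ ⟨a, rfl⟩; exact k.fr.sqV a, ⟨7, k.e7⟩, _, ⟨9, rfl⟩, _, ⟨132, rfl⟩, _, ⟨305, rfl⟩, ?_⟩
  · obtain ⟨g, hg, rfl⟩ := k.cov.exists_cj (k.mem (i := 0) (by decide)) ha
    simpa only [cj_mul, cj_of_commute hg.symm] using q1.cj g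
  · have m : ∀ x ∈ [9, 132, 305, 9 ^^^ 132, 9 ^^^ 305, 132 ^^^ 305, 9 ^^^ 132 ^^^ 305], x < 2 ^ 9 ∧ m2 x = true ∧ x ≠ 0 ∧
        7 ^^^ x < 2 ^ 9 ∧ m2 (7 ^^^ x) = false ∧ ∀ j < 21, 7 ^^^ x ≠ ka j := by decide +kernel
    have m' := fun x hx => let ⟨a1, a2, a3, a4, a5, a6⟩ := m x hx
      And.intro (k.two hq a1 a2 a3) (k.ys a4 a5 a6)
    simpa only [List.forall_mem_cons, k.fr.xor, k.e7, List.not_mem_nil, false_imp_iff, implies_true] using m'

end Cfsg.Agent.SF6
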