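import Mathlib
import Cfsg.Agent.SF6.UCo
import Cfsg.Agent.F24S.KAut

/-! A standard subgroup `2 · U₆(2)`: conjugates of the central involution that induce inner automorphisms. -/

set_option autoImplicit false

namespace Cfsg.Agent.SF6

open Cfsg.Agent.Spor Cfsg.Agent.Spor.TT Cfsg.Agent.Spor.FC Cfsg.Agent.T3 Cfsg.Agent.T3.FPl Subgroup
open scoped commutatorElement

variable {G : Type*} [Group G]

/-- A standard subgroup `L` with central involution `t` and `L / ⟨t⟩ ≅ U₆(2)`. -/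
structure Su (L : Subgroup G) (t : G) (π : L →* PU6) : Prop where
  ord : orderOf t = 2
  tm : t ∈ L
  surj : Function.Surjective π
  ker : ∀ k : L, π k = 1 ↔ (k : G) = 1 ∨ (k : G) = t
  perf : ⁅L, L⁆ = L
  tK : t ∈ centralizer (L : Set G)
  nrm : ∀ c, Commute t c → c ∈ normalizer (L : Set G)
  tight : ∀ c k, k ∈ centralizer (L : Set G) → cj c k ∈ centralizer (L : Set G) → k * k = 1 → k ≠ 1 → Commute t c
  odd : ∀ X ≤ centralizer (L : Set G), centralizer (L : Set G) ≤ normalizer (X : Set G) →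
    (∀ x ∈ X, x * x = 1 → x = 1) → X = ⊥

variable {L : Subgroup G} {t c d g : G} {π : L →* PU6} {α β : MulAut PU6} {X : Subgroup PU6} {v w x : L}

/-- `c` induces `α`. -/
def Ind (t : G) (π : L →* PU6) (c : G) (α : MulAut PU6) : Prop :=
  Commute t c ∧ ∀ x y : L, (y : G) = cj c x → π y = α (π x)

/-- `c` acts as an element over `X`. -/
def In (π : L →* PU6) (X : Subgroup PU6) (c : G) : Prop := ∃ v : L, π v ∈ X ∧ (v : G)⁻¹ * c ∈ centralizer (L : Set G)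

/-- `c` permutes the points of the plane. -/
def Nm (t : G) (π : L →* PU6) (c : G) : Prop := ∃ α, Ind t π c α ∧ Pm α

theorem comm_of_sq {E : Type*} [Group E] {a b : E} (ha : a * a = 1) (hb : b * b = 1) (h : a * b * (a * b) = 1) :
    Commute a b := by
  rw [commute_iff_eq, ← inv_eq_of_mul_eq_one_right h, mul_inv_rev, inv_eq_of_mul_eq_one_right ha,
    inv_eq_of_mul_eq_one_right hb]

theorem pick {E : Type*} [Group E] {A : Subgroup E} (sq : ∀ w ∈ A, w * w = 1) {f n : E → Prop}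
    (f1 : ∀ a ∈ A, ∀ b ∈ A, ¬ f a → ¬ f b → f (a * b)) {p q r : E} (hp : p ∈ A) (hq : q ∈ A) (hr : r ∈ A)
    (hn : ∀ w ∈ [p, q, r, p * q, p * r, q * r, p * q * r], n w) :
    ∃ a ∈ A, ∃ b ∈ A, f a ∧ f b ∧ n a ∧ n b ∧ n (a * b) := by
  simp only [List.forall_mem_cons] at hn
  obtain ⟨n1, n2, n3, n4, n5, n6, n7, -⟩ := hn
  have c : ∀ a ∈ A, ∀ b ∈ A, Commute a b := fun a ha b hb => comm_of_sq (sq a ha) (sq b hb) (sq _ (mul_mem ha hb))
  by_cases a : f p <;> by_cases b : f q <;> by_cases e : f r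
  · exact ⟨p, hp, q, hq, a, b, n1, n2, n4⟩
  · exact ⟨p, hp, q, hq, a, b, n1, n2, n4⟩
  · exact ⟨p, hp, r, hr, a, e, n1, n3, n5⟩
  · exact ⟨p, hp, _, mul_mem hq hr, a, f1 q hq r hr b e, n1, n6, mul_assoc p q r ▸ n7⟩
  · exact ⟨q, hq, r, hr, b, e, n2, n3, n6⟩
  · exact ⟨q, hq, _, mul_mem hp hr, b, f1 p hp r hr a e, n2, n5, by rwa [← mul_assoc, (c q hq p hp).eq]⟩
  · exact ⟨_, mul_mem hp hq, r, hr, f1 p hp q hq a b, e, n4, n3, n7⟩
  · exact ⟨_, mul_mem hp hq, _, mul_mem hp hr, f1 p hp q hq a b, f1 p hp r hr a e, n4, n5, by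
      rwa [(c q hq p hp).mul_mul_mul_comm, sq p hp, one_mul]⟩

theorem cK (hc : c ∈ centralizer (L : Set G)) (x : L) : Commute c x := (hc x x.2).symm

theorem mulK (h1 : (v : G)⁻¹ * c ∈ centralizer (L : Set G)) (h2 : (w : G)⁻¹ * d ∈ centralizer (L : Set G)) :
    ((v * w : L) : G)⁻¹ * (c * d) ∈ centralizer (L : Set G) := by
  have := mul_mem h1 h2
  rwa [← mul_assoc, (cK h1 w).inv_right.eq, mul_assoc, mul_assoc, ← mul_assoc _ _ (c * d), ← mul_inv_rev] at this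

theorem In.mul (h : In π X c) (h' : In π X d) : In π X (c * d) :=
  let ⟨v, a, b⟩ := h; let ⟨w, a', b'⟩ := h'; ⟨v * w, map_mul π v w ▸ mul_mem a a', mulK b b'⟩

theorem In.of (h : π v ∈ X) : In π X v := ⟨v, h, by rw [inv_mul_cancel]; exact one_mem _⟩

theorem cj_of_K (h : (v : G)⁻¹ * c ∈ centralizer (L : Set G)) (x : L) : cj c x = cj (v : G) x := by
  rw [← mul_inv_cancel_left (v : G) c, ← cj_cj, cj_of_commute (cK h x)]

theorem comm_K (h : (v : G)⁻¹ * c ∈ centralizer (L : Set G)) (x : L) : Commute c x ↔ Commute (v : G) x := by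
  rw [← cj_eq_self_iff, ← cj_eq_self_iff, cj_of_K h]

theorem Ind.fix (k : Ind t π c α) (h : Commute c x) : α (π x) = π x := (k.2 x x (cj_of_commute h).symm).symm

theorem pl_EP {i : ℕ} (hi : i < 21) : pt (pl i) ∈ EP := ⟨_, (pt_pl hi).symm⟩

theorem sq_EP {u : PU6} (h : u ∈ EP) : u * u = 1 := let ⟨a, e⟩ := h; e ▸ ev_sq a

namespace Su

variable (h : Su L t π)
include h

theorem tt : t * t = 1 := by rw [← pow_two, ← h.ord, pow_orderOf_eq_one]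

theorem t1 : t ≠ 1 := fun e => by simpa [e] using h.ord

theorem yy (g : G) : cj g t * cj g t = 1 := by rw [← cj_mul, h.tt, cj_one_right]

theorem comm' (k : L) : Commute (⟨t, h.tm⟩ : L) k := Subtype.ext (cK h.tK k)

theorem proj : Proj (⟨t, h.tm⟩ : L) π := by
  refine ⟨by rw [← h.ord, ← orderOf_coe], fun a b _ _ => map_mul π a b, fun a _ => ?_,
    fun u => let ⟨k, hk⟩ := h.surj u; ⟨k, h.comm' k, hk⟩, fun K hK => ?_⟩
  · rw [h.ker, Subtype.ext_iff, Subtype.ext_iff]; rfl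
  · have h1 : ⁅L, L⁆ ≤ K.map L.subtype := commutator_le.2 fun a ha b hb => by
      refine ⟨⁅(⟨a, ha⟩ : L), (⟨b, hb⟩ : L)⁆, ?_, rfl⟩
      generalize (⟨a, ha⟩ : L) = a, (⟨b, hb⟩ : L) = b
      have e1 : ∀ a b : L, ⁅(⟨t, h.tm⟩ : L) * a, b⁆ = ⁅a, b⁆ := fun a b => by
        rw [commutatorElement_def, commutatorElement_def, (h.comm' a).eq, mul_inv_rev, mul_assoc a _ b,
          (h.comm' b).eq]
        group
      have e2 : ∀ a b : L, ⁅a, (⟨t, h.tm⟩ : L) * b⁆ = ⁅a, b⁆ := fun a b => by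
        rw [← commutatorElement_inv, e1, commutatorElement_inv]
      have m : ∀ a ∈ K, ∀ b ∈ K, ⁅a, b⁆ ∈ K := fun a ha b hb =>
        mul_mem (mul_mem (mul_mem ha hb) (inv_mem ha)) (inv_mem hb)
      rcases hK a (h.comm' a) with k1 | k1 <;> rcases hK b (h.comm' b) with k2 | k2 <;>
        simpa only [e1, e2, SetLike.mem_coe] using m _ k1 _ k2
    rw [h.perf] at h1
    obtain ⟨k, hk, e⟩ := h1 h.tm
    rwa [show (⟨t, h.tm⟩ : L) = k from Subtype.ext e.symm]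

theorem lift_sq (e : π x * π x = 1) : x * x = 1 :=
  let ⟨_, k⟩ := h.proj.exists_cov bs_tvP; k.lift_sq (h.comm' x) e

theorem sqV (hx : π x ∈ EP) : (x : G) * x = 1 := congrArg Subtype.val (h.lift_sq (sq_EP hx))

theorem commV (hv : π v ∈ EP) (hw : π w ∈ EP) : Commute (v : G) w :=
  comm_of_sq (h.sqV hv) (h.sqV hw) (h.sqV (x := v * w) (map_mul π v w ▸ mul_mem hv hw))

theorem inV_comm (k : In π EP c) (hw : π w ∈ EP) : Commute c w :=
  let ⟨_, a, b⟩ := k; (comm_K b w).2 (h.commV a hw)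

theorem cj_mem (hc : Commute t c) (x : L) : cj c x ∈ L := (mem_normalizer_iff.1 (h.nrm c hc) _).1 x.2

theorem cj_K (hc : Commute t c) (hd : d ∈ centralizer (L : Set G)) : cj c d ∈ centralizer (L : Set G) := fun x hx =>
  (commute_cj_left.2 (cK hd ⟨_, h.cj_mem hc.inv_right ⟨x, hx⟩⟩)).symm

theorem K_comm (hc : c ∈ centralizer (L : Set G)) : Commute t c := hc t h.tm

theorem map_K : π x = 1 ↔ (x : G) ∈ centralizer (L : Set G) := by
  refine ⟨fun e => ?_, fun e => mem_bot.1 (fis_tvP.center_eq_bot ▸ mem_center_iff.2 fun u => ?_)⟩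
  · rcases (h.ker x).1 e with e | e <;> rw [e]
    exacts [one_mem _, h.tK]
  · obtain ⟨y, rfl⟩ := h.surj u
    rw [← map_mul, ← map_mul, show y * x = x * y from Subtype.ext (e y y.2)]

theorem K_of (e : π v = 1) (k : (v : G)⁻¹ * c ∈ centralizer (L : Set G)) : c ∈ centralizer (L : Set G) :=
  (mul_mem_cancel_left (inv_mem (h.map_K.1 e))).1 k

theorem In.comm (k : In π X c) : Commute t c :=
  let ⟨v, _, b⟩ := k; mul_inv_cancel_left (v : G) c ▸ (cK h.tK v).mul_right (h.K_comm b)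

theorem not_mem_K (hg : cj g t ≠ t) : cj g t ∉ centralizer (L : Set G) := fun e =>
  hg (cj_of_commute (h.tight g t h.tK e h.tt h.t1).symm)

theorem ind_mul (k : Ind t π c α) (k' : Ind t π d β) : Ind t π (c * d) (α * β) :=
  ⟨k.1.mul_right k'.1, fun x y e => by
    rw [MulAut.mul_apply, ← k'.2 x ⟨_, h.cj_mem k'.1 x⟩ rfl, k.2 ⟨_, h.cj_mem k'.1 x⟩ y (e.trans (cj_cj _ _ _).symm)]⟩

theorem ind_ext (k : Ind t π c α) (k' : Ind t π c β) : α = β := MulEquiv.ext fun u => by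
  obtain ⟨x, rfl⟩ := h.surj u
  rw [← k.2 x ⟨_, h.cj_mem k.1 x⟩ rfl, ← k'.2 x ⟨_, h.cj_mem k.1 x⟩ rfl]

theorem ind_in (k : (v : G)⁻¹ * c ∈ centralizer (L : Set G)) : Ind t π c (MulAut.conj (π v)) :=
  ⟨In.comm h (X := ⊤) ⟨v, mem_top _, k⟩, fun x y e => by
    rw [show y = cj v x from Subtype.ext (e.trans (cj_of_K k x)), map_cj]; rfl⟩

theorem ind_sq (k : Ind t π c α) (e : c * c = 1) : α * α = 1 :=
  (h.ind_ext (e ▸ h.ind_mul k k) (h.ind_in (v := 1) (by simp))).trans (by rw [map_one, map_one])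

theorem exists_ind (hn : Commute t c) : ∃ α, Ind t π c α := by
  let β : L →* L := ⟨⟨fun k => ⟨cj c k, h.cj_mem hn k⟩, Subtype.ext (cj_one_right c)⟩,
    fun a b => Subtype.ext (cj_mul c a b)⟩
  let ψ : PU6 →* PU6 := π.liftOfSurjective h.surj ⟨π.comp β, fun k hk => by
    rw [MonoidHom.mem_ker] at hk ⊢
    exact h.map_K.2 (h.cj_K hn (h.map_K.1 hk))⟩
  have hψ : ∀ k, ψ (π k) = π (β k) := fun k => π.liftOfRightInverse_comp_apply _ _ _ k
  have hs : Function.Surjective ψ := fun u => by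
    obtain ⟨k, rfl⟩ := h.surj u
    exact ⟨_, (hψ ⟨_, h.cj_mem hn.inv_right k⟩).trans (congrArg π (Subtype.ext (cj_cj_inv c k)))⟩
  exact ⟨MulEquiv.ofBijective ψ ⟨Finite.injective_iff_surjective.2 hs, hs⟩, hn, fun x y e =>
    (congrArg π (Subtype.ext e)).trans (hψ x).symm⟩

theorem in_iff (k : Ind t π c α) : In π X c ↔ ∃ u ∈ X, α = MulAut.conj u := by
  refine ⟨fun ⟨v, a, b⟩ => ⟨_, a, h.ind_ext k (h.ind_in b)⟩, ?_⟩
  rintro ⟨u, hu, rfl⟩
  obtain ⟨v, rfl⟩ := h.surj u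
  have ct : Commute t ((v : G)⁻¹ * c) := (cK h.tK v).inv_right.mul_right k.1
  have k1 : ∀ x ∈ L, cj ((v : G)⁻¹ * c) x = x ∨ cj ((v : G)⁻¹ * c) x = t * x := fun x hx => by
    have := h.proj.eq_or (h.comm' _) (h.comm' _) (x := ⟨x, hx⟩) (y := cj v⁻¹ ⟨_, h.cj_mem k.1 ⟨x, hx⟩⟩) (by
      rw [map_cj, k.2 ⟨x, hx⟩ ⟨_, h.cj_mem k.1 ⟨x, hx⟩⟩ rfl, map_inv]; exact (cj_inv_cj _ _).symm)
    rw [← cj_cj]
    exact this.imp (congrArg Subtype.val) (congrArg Subtype.val)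
  have k2 : ⁅L, L⁆ ≤ centralizer {(v : G)⁻¹ * c} := commutator_le.2 fun a ha b hb => mem_cen.2 (cj_eq_self_iff.1 (by
    have e1 : ∀ a ∈ L, ∀ b ∈ L, ⁅t * a, b⁆ = ⁅a, b⁆ := fun a ha b hb => by
      rw [commutatorElement_def, commutatorElement_def, (cK h.tK ⟨a, ha⟩).eq, mul_inv_rev, mul_assoc a _ b,
        (cK h.tK ⟨b, hb⟩).eq]
      group
    have e2 : ∀ a ∈ L, ⁅a, t * b⁆ = ⁅a, b⁆ := fun a ha => by
      rw [← commutatorElement_inv, e1 b hb a ha, commutatorElement_inv]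
    rw [show cj ((v : G)⁻¹ * c) ⁅a, b⁆ = ⁅cj ((v : G)⁻¹ * c) a, cj ((v : G)⁻¹ * c) b⁆ from
      map_commutatorElement (MulAut.conj _) a b]
    rcases k1 a ha with e | e <;> rcases k1 b hb with e' | e' <;> rw [e, e']
    exacts [e2 a ha, e1 a ha b hb, (e2 _ (mul_mem h.tm ha)).trans (e1 a ha b hb)]))
  exact ⟨v, hu, fun x hx => (mem_cen.1 (k2 (h.perf.ge hx))).symm⟩

theorem in_V (k : Ind t π c α) : In π EP c ↔ Fx α :=
  ⟨fun e i hi => by
    obtain ⟨x, hx⟩ := h.surj (pt (pl i))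
    exact hx ▸ k.fix (h.inV_comm e (hx ▸ pl_EP hi)), fun e => (h.in_iff k).2 e.exists⟩

theorem in_mul (hc : Commute t c) (hd : Commute t d) (c2 : In π ⊤ (c * c)) (d2 : In π ⊤ (d * d))
    (cd : In π ⊤ (c * d * (c * d))) (c1 : ¬ In π ⊤ c) (d1 : ¬ In π ⊤ d) : In π ⊤ (c * d) := by
  obtain ⟨α, k⟩ := h.exists_ind hc
  obtain ⟨β, k'⟩ := h.exists_ind hd
  have f : ∀ {c α}, Ind t π c α → (In π ⊤ c ↔ ∃ u, α = MulAut.conj u) := fun k => (h.in_iff k).trans (by simp)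
  exact (f (h.ind_mul k k')).2 (out2 ((f (h.ind_mul k k)).1 c2) ((f (h.ind_mul k' k')).1 d2)
    ((f (h.ind_mul (h.ind_mul k k') (h.ind_mul k k'))).1 cd) (fun u e => c1 ((f k).2 ⟨u, e⟩))
    fun u e => d1 ((f k').2 ⟨u, e⟩))

omit h in
theorem in_one : In π X 1 := In.of (v := 1) (map_one π ▸ one_mem X)

theorem in_t : In π X t := In.of (v := ⟨t, h.tm⟩) (((h.map_K (x := ⟨t, h.tm⟩)).2 h.tK).symm ▸ one_mem X)

theorem two_inner (hc : Commute t (cj g t)) (ho : ¬ In π ⊤ (cj g t)) : ∃ v w : G, In π ⊤ v ∧ In π ⊤ w ∧ v ≠ 1 ∧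
    w ≠ 1 ∧ v ≠ w ∧ Commute v w ∧ (∃ a, a * a = 1 ∧ cj a t = t * v) ∧ t * w ∈ conjugatesOf t ∧
      t * (v * w) ∈ conjugatesOf t := by
  obtain ⟨α, k⟩ := h.exists_ind hc
  have a2 := h.ind_sq k (h.yy g)
  have aa : ∀ u, α (α u) = u := DFunLike.congr_fun a2
  obtain ⟨p, p1, p2, p3⟩ := aut_plane α a2 fun u e => ho ((h.in_iff k).2 ⟨u, mem_top u, e⟩)
  let A := closure (Set.range p ∪ Set.range fun i => α (p i))
  have sA : ∀ u ∈ A, u * u = 1 := fun u hu => sq_eq_one_of_mem_closure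
    (by rintro _ (⟨i, rfl⟩ | ⟨i, rfl⟩); exacts [sq0 _ (p1 i), sq0 _ (map_mem α (p1 i))])
    (by
      rintro _ (⟨i, rfl⟩ | ⟨i, rfl⟩) _ (⟨j, rfl⟩ | ⟨j, rfl⟩)
      exacts [(p2 i j).1, (p2 i j).2, (p2 j i).2.symm, (p2 i j).1.map α]) hu
  have mA : ∀ u ∈ A, α u ∈ A := fun u hu => (closure_le (A.comap α.toMonoidHom)).2 (by
    rintro _ (⟨i, rfl⟩ | ⟨i, rfl⟩)
    exacts [subset_closure (Or.inr ⟨i, rfl⟩), show α (α (p i)) ∈ A from (aa _).symm ▸ subset_closure (Or.inl ⟨i, rfl⟩)]) hu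
  have cA : ∀ u ∈ A, ∀ v ∈ A, Commute u v := fun u hu v hv => comm_of_sq (sA u hu) (sA v hv) (sA _ (mul_mem hu hv))
  have sE : ∀ w ∈ A.comap π, w * w = 1 := fun w hw => h.lift_sq (sA _ hw)
  have cE : ∀ v ∈ A.comap π, ∀ w ∈ A.comap π, Commute v w := fun v hv w hw =>
    comm_of_sq (sE v hv) (sE w hw) (sE _ (mul_mem hv hw))
  let y : L → L := fun w => ⟨_, h.cj_mem hc w⟩
  have y1 : ∀ w, π (y w) = α (π w) := fun w => k.2 w _ rfl
  have y2 : ∀ w ∈ A.comap π, y w ∈ A.comap π := fun w hw => show π (y w) ∈ A from y1 w ▸ mA _ hw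
  let u : L → G := fun w => cj g⁻¹ (y w * w : L)
  have u1 : ∀ v ∈ A.comap π, ∀ w ∈ A.comap π, u (v * w) = u v * u w := fun v hv w hw => by
    simp only [u]
    rw [← cj_mul, ← coe_mul, (cE v hv _ (y2 w hw)).mul_mul_mul_comm, show y (v * w) = y v * y w from
      Subtype.ext (cj_mul _ _ _)]
  have u2 : ∀ w ∈ A.comap π, u w * u w = 1 := fun w hw => by
    simp only [u]
    rw [← cj_mul, ← coe_mul, sE _ (mul_mem (y2 w hw) hw), coe_one, cj_one_right]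
  have u3 : ∀ w ∈ A.comap π, cj (cj g⁻¹ (w : G)) t = t * u w := fun w hw => by
    have a1 : (w : G)⁻¹ = w := inv_eq_of_mul_eq_one_right (congrArg Subtype.val (sE w hw))
    have a2 : t⁻¹ = t := inv_eq_of_mul_eq_one_right h.tt
    simp only [u, y, coe_mul, cj_def, mul_inv_rev, inv_inv, a1, a2, mul_assoc, inv_mul_cancel_left]
    rw [← mul_assoc t t, h.tt, one_mul]
  have u4 : ∀ w ∈ A.comap π, Commute t (u w) := fun w hw => commute_cj_left.1 (cj_eq_self_iff.1 (by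
    rw [(cE _ (y2 w hw) w hw).eq, coe_mul, cj_mul, show (y w : G) = cj (cj g t) w from rfl, cj_cj, h.yy, cj_one,
      ← coe_mul (x := y w) (y := w), (cE _ (y2 w hw) w hw).eq]
    rfl))
  choose a ha using fun i => h.surj (p i)
  have ma : ∀ i, a i ∈ A.comap π := fun i => show π (a i) ∈ A from ha i ▸ subset_closure (Or.inl ⟨i, rfl⟩)
  have mp : ∀ i, p i ∈ A := fun i => subset_closure (Or.inl ⟨i, rfl⟩)
  have φ : ∀ u ∈ A, ∀ v ∈ A, α (u * v) * (u * v) = α u * u * (α v * v) := fun u hu v hv => by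
    rw [map_mul, (cA _ (mA v hv) u hu).mul_mul_mul_comm]
  have q3 : ∀ e : Fin 3 → Fin 2, e ≠ 0 → (α (p 0) * p 0) ^ (e 0).val * (α (p 1) * p 1) ^ (e 1).val *
      (α (p 2) * p 2) ^ (e 2).val ≠ 1 := fun e n k => n (p3 e (by simpa only [fun i => (p2 i i).2.eq] using k))
  obtain ⟨v, hv, w, hw, f1, f2, n1, n2, n3⟩ := pick sE (f := fun w => In π ⊤ (u w))
    (n := fun w => α (π w) * π w ≠ 1)
    (fun v hv w hw f1 f2 => u1 v hv w hw ▸ h.in_mul (u4 v hv) (u4 w hw) (u2 v hv ▸ in_one) (u2 w hw ▸ in_one)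
      (by rw [← u1 v hv w hw, u2 _ (mul_mem hv hw)]; exact in_one) f1 f2) (ma 0) (ma 1) (ma 2) (by
      simp only [List.forall_mem_cons, map_mul π, ha, φ _ (mul_mem (mp 0) (mp 1)) _ (mp 2), φ _ (mp 0) _ (mp 1),
        φ _ (mp 0) _ (mp 2), φ _ (mp 1) _ (mp 2)]
      exact ⟨by simpa using q3 ![1, 0, 0] (by decide), by simpa using q3 ![0, 1, 0] (by decide),
        by simpa using q3 ![0, 0, 1] (by decide), by simpa using q3 ![1, 1, 0] (by decide),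
        by simpa using q3 ![1, 0, 1] (by decide), by simpa using q3 ![0, 1, 1] (by decide),
        by simpa using q3 ![1, 1, 1] (by decide), by simp⟩)
  have n : ∀ w, α (π w) * π w ≠ 1 → u w ≠ 1 := fun w n e => n (by
    rw [← y1, ← map_mul, show y w * w = 1 from Subtype.ext (conj_eq_one_iff.1 e), map_one])
  refine ⟨u v, u w, f1, f2, n v n1, n w n2, fun e => n _ n3 (by rw [u1 v hv w hw, e, u2 w hw]),
    comm_of_sq (u2 v hv) (u2 w hw) (u1 v hv w hw ▸ u2 _ (mul_mem hv hw)), ⟨_, ?_, u3 v hv⟩,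
    u3 w hw ▸ TT.mem_conjugatesOf_iff.2 ⟨_, rfl⟩,
    u1 v hv w hw ▸ u3 _ (mul_mem hv hw) ▸ TT.mem_conjugatesOf_iff.2 ⟨_, rfl⟩⟩
  rw [← cj_mul, ← coe_mul, sE v hv, coe_one, cj_one_right]

theorem exists_inner (hg : cj g t ≠ t) (hc : Commute t (cj g t)) :
    ∃ g, cj g t ≠ t ∧ In π ⊤ (cj g t) ∧ In π ⊤ (cj g⁻¹ t) := by
  have key : ∀ g, Commute t (cj g t) → ¬ In π ⊤ (cj g t) →
      ∃ g, cj g t ≠ t ∧ In π ⊤ (cj g t) ∧ In π ⊤ (cj g⁻¹ t) := fun g hc ho => by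
    obtain ⟨v, -, f, -, n, -, -, -, ⟨a, a2, e⟩, -⟩ := h.two_inner hc ho
    have := e ▸ h.in_t.mul f
    exact ⟨a, fun k => n (mul_eq_left.1 (e.symm.trans k)), this, by rwa [inv_eq_of_mul_eq_one_right a2]⟩
  by_cases h1 : In π ⊤ (cj g t)
  · by_cases h2 : In π ⊤ (cj g⁻¹ t)
    · exact ⟨g, hg, h1, h2⟩
    · exact key _ (commute_cj_left.1 hc.symm) h2
  · exact key _ hc h1

theorem exists_inV (k : In π ⊤ (cj g t)) : ∃ x, Commute t x ∧ In π EP (cj (x * g) t) := by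
  obtain ⟨v, -, k⟩ := k
  obtain ⟨u, e⟩ := conj_EP (u := π v) (by
    have := inv_mem (mulK k k)
    rw [h.yy, mul_one, inv_inv] at this
    rw [← map_mul, h.map_K.2 this])
  obtain ⟨x, rfl⟩ := h.surj u
  refine ⟨x, cK h.tK x, cj x v, map_cj π x v ▸ e, ?_⟩
  rw [← cj_cj, coe_cj, ← cj_inv, ← cj_mul]
  exact h.cj_K (cK h.tK x) k

/-- The preimage of the group of the plane. -/
noncomputable def V (π : L →* PU6) : Subgroup G := (EP.comap π).map L.subtype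

theorem pg_V : IsPGroup 2 (V π) := by
  rintro ⟨_, x, hx, rfl⟩
  exact ⟨1, Subtype.ext ((pow_two _).trans (h.sqV hx))⟩

theorem in_norm {P : Subgroup G} (hP : IsPGroup 2 P) (hV : V π ≤ P) (hc : c ∈ P) (ct : Commute t c) : Nm t π c := by
  obtain ⟨α, k⟩ := h.exists_ind ct
  refine ⟨α, k, pm_of_pow fun i hi j hj => ?_⟩
  obtain ⟨a, ha⟩ := h.surj (pt (pl i))
  obtain ⟨b, hb⟩ := h.surj (pt (pl j))
  obtain ⟨n, hn⟩ := hP ⟨_, mul_mem (hV ⟨b, show π b ∈ EP from hb ▸ pl_EP hj, rfl⟩)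
    (cj_mem_of_mem hc (hV ⟨a, show π a ∈ EP from ha ▸ pl_EP hi, rfl⟩))⟩
  refine ⟨n, ?_⟩
  rw [← ha, ← hb, ← k.2 a ⟨_, h.cj_mem ct a⟩ rfl, ← map_mul, ← map_pow,
    show (b * ⟨_, h.cj_mem ct a⟩) ^ 2 ^ n = 1 from Subtype.ext (congrArg Subtype.val hn :), map_one]

theorem exists_norm [Finite G] (hg : cj g t ≠ t) (hc : Commute t (cj g t)) : ∃ g, cj g t ≠ t ∧
    (∀ w : L, π w ∈ EP → Nm t π (cj g w)) ∧ ∀ w : L, π w ∈ EP → Nm t π (cj g⁻¹ w) := by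
  obtain ⟨g, h1, h2, h3⟩ : ∃ g, cj g t ≠ t ∧ In π EP (cj g t) ∧ In π EP (cj g⁻¹ t) := by
    obtain ⟨g, h1, h2, h3⟩ := h.exists_inner hg hc
    obtain ⟨x, x1, x2⟩ := h.exists_inV h2
    obtain ⟨y, y1, y2⟩ := h.exists_inV h3
    have e : cj (x * g * y⁻¹) t = cj (x * g) t := by rw [← cj_cj, cj_of_commute y1.symm.inv_left]
    refine ⟨x * g * y⁻¹, fun k => h1 (cj_injective x ?_), e ▸ x2, ?_⟩
    · rw [cj_cj, ← e, k, cj_of_commute x1.symm]
    · rwa [mul_inv_rev, mul_inv_rev, inv_inv, ← mul_assoc, ← cj_cj, cj_of_commute x1.symm.inv_left]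
  have a2 : ∀ w : L, π w ∈ EP → Commute t (cj g w) := fun w hw => commute_cj_right.2 (h.inV_comm h3 hw)
  obtain ⟨c, c1, T, b1, b2⟩ := FC.exists_conj_sylow (H := centralizer {t} ⊓ centralizer {cj g t}) (A := V π)
    (B := (V π).map (MulAut.conj g).toMonoidHom)
    (by
      rintro _ ⟨w, hw, rfl⟩
      exact ⟨mem_cen.2 (cK h.tK w), mem_cen.2 (h.inV_comm h2 hw)⟩)
    (by
      rintro _ ⟨_, ⟨w, hw, rfl⟩, rfl⟩
      exact ⟨mem_cen.2 (a2 w hw), mem_cen.2 (commute_cj.2 (cK h.tK w))⟩)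
    h.pg_V (h.pg_V.map _)
  have c2 := mem_cen.1 c1.1
  have b3 : ∀ w : L, π w ∈ EP → cj (c * g) w ∈ (T : Subgroup G) := fun w hw =>
    cj_cj c g _ ▸ b2 ⟨_, ⟨_, ⟨w, hw, rfl⟩, rfl⟩, rfl⟩
  have e : cj (c * g) t = cj g t := by rw [← cj_cj, cj_of_commute (mem_cen.1 c1.2).symm]
  refine ⟨c * g, e ▸ h1, fun w hw => h.in_norm T.isPGroup' b1 (b3 w hw) ?_, fun w hw => h.in_norm
    (T.isPGroup'.map (MulAut.conj (c * g)⁻¹).toMonoidHom) ?_ ⟨_, b1 ⟨w, hw, rfl⟩, rfl⟩ ?_⟩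
  · rw [← cj_cj, commute_cj_right_of c2.symm]
    exact a2 w hw
  · rintro _ ⟨w, hw, rfl⟩
    exact ⟨_, b3 w hw, cj_inv_cj _ _⟩
  · rw [← commute_cj_left, e]
    exact h.inV_comm h2 hw

theorem inV_of_norm (h1 : ∀ w : L, π w ∈ EP → Nm t π (cj g w)) (h2 : ∀ w : L, π w ∈ EP → Nm t π (cj g⁻¹ w))
    (hw : π w ∈ EP) : In π EP (cj g⁻¹ w) := by
  obtain ⟨α, k, pm⟩ := h2 w hw
  refine (h.in_V k).2 (q2 pm fun u hu v hv => ?_)
  obtain ⟨a, rfl⟩ := h.surj u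
  obtain ⟨b, rfl⟩ := h.surj v
  obtain ⟨β, k1, p1⟩ := h1 a hu
  obtain ⟨γ, k2, p2⟩ := h1 b hv
  have s : ∀ a : L, π a ∈ EP → cj g (a : G) * cj g a = 1 := fun a ha => by rw [← cj_mul, h.sqV ha, cj_one_right]
  have f : ∀ {a : L} {β}, Ind t π (cj g a) β → Fx β → α (π a) = π a := fun k' fx =>
    k.fix (commute_cj_left.1 (h.inV_comm ((h.in_V k').2 fx) hw)).symm
  refine (q1 p1 p2 (h.ind_sq k1 (s a hu)) (h.ind_sq k2 (s b hv))
    (h.ind_ext (h.ind_mul k1 k2) ((commute_cj.2 (h.commV hu hv)).eq ▸ h.ind_mul k2 k1)) fun z hz => ?_).imp (f k1)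
    (Or.imp (f k2) fun fx => map_mul π a b ▸ f (a := a * b) (by rw [coe_mul, cj_mul]; exact h.ind_mul k1 k2) fx)
  obtain ⟨z, rfl⟩ := h.surj z
  obtain ⟨δ, k3, p3⟩ := h2 z hz
  rw [← k1.2 z ⟨_, h.cj_mem k1.1 z⟩ rfl, ← map_mul]
  refine k2.fix ?_
  have e : cj (cj g (a : G)) z * z = cj g (a * cj (cj g⁻¹ (z : G)) a) := by
    simp only [cj_def, mul_inv_rev, inv_inv, inv_eq_of_mul_eq_one_right (h.sqV hz),
      inv_eq_of_mul_eq_one_right (h.sqV hu), mul_assoc, mul_inv_cancel_left, mul_inv_cancel, mul_one]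
  show Commute _ (cj _ _ * _)
  rw [e, commute_cj]
  exact (h.commV hv hu).mul_right (h.commV (w := ⟨_, h.cj_mem k3.1 a⟩) hv ((k3.2 a ⟨_, h.cj_mem k3.1 a⟩ rfl).symm ▸ p3.map_EP hu))

theorem exists_pair [Finite G] (hg : cj g t ≠ t) (hc : Commute t (cj g t)) : ∃ g, cj g t ≠ t ∧
    (∀ w : L, π w ∈ EP → In π EP (cj g w)) ∧ ∀ w : L, π w ∈ EP → In π EP (cj g⁻¹ w) := by
  obtain ⟨g, h1, h2, h3⟩ := h.exists_norm hg hc
  exact ⟨g, h1, fun w hw => inv_inv g ▸ h.inV_of_norm h3 (by rwa [inv_inv]) hw, fun w hw => h.inV_of_norm h2 h3 hw⟩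

end Su

end Cfsg.Agent.SF6
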